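import Mathlib
import Cfsg.Agent.H25.UGDefs

/-! Project UG, piece POLY: no class `z P ∖ z` is invariant under the translations. -/

set_option autoImplicit false

namespace Cfsg.Agent.H56.UgPoly

open Cfsg Module Cfsg.Agent.H25.UG Polynomial

universe u

variable {K : Type u} [Field K]

/-- The shifted polynomial. -/
noncomputable def G (t : ℕ) (c0 a : K) : K[X] := (X + C (a + 1)) ^ t - C c0 * (X + C a) ^ t

theorem G_coeff (t : ℕ) (c0 a : K) (n : ℕ) :
    (G t c0 a).coeff n = ((a + 1) ^ (t - n) - c0 * a ^ (t - n)) * (t.choose n : K) := by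
  rw [G, coeff_sub, coeff_C_mul, coeff_X_add_C_pow, coeff_X_add_C_pow]; ring

theorem G_eval (t : ℕ) (a : K) {s : Kˣ} (hs : s ≠ 1) {y : K} (hy : y + a + 1 = kap s) :
    (G t ((s : K) ^ t) a).eval y = 0 := by
  have h1 : (s : K) - 1 ≠ 0 := sub_ne_zero.2 fun e => hs (Units.ext e)
  have h2 : y + (a + 1) = s * (y + a) := by
    rw [eq_sub_of_add_eq hy, ← add_assoc, hy, kap]
    field_simp
    ring
  simp only [G, eval_sub, eval_mul, eval_pow, eval_add, eval_X, eval_C]
  rw [h2, mul_pow, sub_self]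

theorem lin_coeff (a : K) (f : K[X]) (n : ℕ) :
    ((X + C a) * f).coeff (n + 1) = f.coeff n + a * f.coeff (n + 1) := by
  rw [add_mul, coeff_add, coeff_X_mul, coeff_C_mul]

theorem case1 {t : ℕ} (ht : 2 ≤ t) (h1 : (t : K) = 1) {c : K} (S : Finset K) (hS : S.card = t - 1)
    (h : ∀ y ∈ S, (G t 1 c).eval y = 0 ∧ (G t 1 0).eval y = 0) : c ^ (t - 1) = -c := by
  have e : G t 1 c - G t 1 0 = 0 := by
    refine eq_zero_of_degree_lt_of_eval_finset_eq_zero S ?_ fun y hy => by
      rw [eval_sub, (h y hy).1, (h y hy).2, sub_self]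
    rw [hS, degree_lt_iff_coeff_zero]
    intro m hm
    rw [coeff_sub, G_coeff, G_coeff]
    rcases (by omega : t - m = 0 ∨ t - m = 1) with h | h <;> rw [h] <;> ring
  have e0 := congrArg (coeff · 0) e
  have e1 := congrArg (coeff · 1) e
  obtain ⟨n, rfl⟩ : ∃ n, t = n + 2 := ⟨t - 2, by omega⟩
  simp only [coeff_sub, G_coeff, coeff_zero, Nat.choose_zero_right, Nat.choose_one_right, h1,
    Nat.sub_zero, show n + 2 - 1 = n + 1 from rfl] at e0 e1 ⊢
  linear_combination e0 - (c + 1) * e1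

theorem case2 {t : ℕ} (ht : 2 ≤ t) (h1 : (t : K) = 1) (h2 : (t.choose 2 : K) = 0) {c c0 α : K}
    (S : Finset K) (hS : S.card = t + 1)
    (h : ∀ y ∈ S, (y + α) * (G t c0 c).eval y = 0 ∧ (y + (α + c)) * (G t c0 0).eval y = 0) :
    c0 * c ^ (t - 1) = 0 := by
  have e : (X + C α) * G t c0 c - (X + C (α + c)) * G t c0 0 = 0 := by
    refine eq_zero_of_degree_lt_of_eval_finset_eq_zero S ?_ fun y hy => by
      simp only [eval_sub, eval_mul, eval_add, eval_X, eval_C]
      rw [(h y hy).1, (h y hy).2, sub_self]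
    rw [hS, degree_lt_iff_coeff_zero]
    intro m hm
    obtain ⟨n, rfl⟩ : ∃ n, m = n + 1 := ⟨m - 1, by omega⟩
    rw [coeff_sub, lin_coeff, lin_coeff, G_coeff, G_coeff, G_coeff, G_coeff,
      Nat.choose_eq_zero_of_lt (show t < n + 1 by omega), show t - n = 0 by omega]
    simp
  have e0 := congrArg (coeff · (0 + 1)) e
  have e1 := congrArg (coeff · (1 + 1)) e
  obtain ⟨n, rfl⟩ : ∃ n, t = n + 2 := ⟨t - 2, by omega⟩
  beta_reduce at e0 e1
  rw [coeff_sub, lin_coeff, lin_coeff] at e0 e1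
  simp only [G_coeff, coeff_zero, Nat.choose_zero_right, zero_add,
    Nat.choose_one_right, h1, Nat.sub_zero, show n + 2 - 1 = n + 1 from rfl, one_add_one_eq_two,
    h2] at e0 e1 ⊢
  linear_combination e0 - (α + c + 1) * e1

theorem poly : PolyStmt.{u} := by
  intro E K _ _ _ _ _ σ B q t kt h3 z hz cl
  classical
  obtain ⟨p, f, hp, -, hK, hf, hq⟩ := kt.pp
  obtain ⟨k, rfl⟩ : ∃ k, q = k + 1 := ⟨q - 1, by omega⟩
  have ht : t = (k + 1) * (k * (2 * (((k + 1) ^ 4 + (k + 1) ^ 2) / 2) + 1)) + 1 := by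
    have he : 2 * (((k + 1) ^ 4 + (k + 1) ^ 2) / 2) = (k + 1) ^ 4 + (k + 1) ^ 2 := by
      refine Nat.mul_div_cancel' (even_iff_two_dvd.1 ?_)
      rw [show (k + 1) ^ 4 + (k + 1) ^ 2 = (k + 1) ^ 2 * ((k + 1) ^ 2 + 1) by ring]
      exact Nat.even_mul_succ_self _
    rw [he]
    refine Nat.eq_of_mul_eq_mul_left (show 0 < k + 1 + 1 by omega) ?_
    have := kt.card
    rw [one_mul] at this
    rw [← this]
    ring
  generalize ((k + 1) ^ 4 + (k + 1) ^ 2) / 2 = o at ht
  have hq0 : ((k + 1 : ℕ) : K) = 0 := by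
    rw [hq, Nat.cast_pow, CharP.cast_eq_zero, zero_pow hf.ne']
  have h1 : (t : K) = 1 := by rw [ht, Nat.cast_add, Nat.cast_mul, hq0]; simp
  have h2 : (t.choose 2 : K) = 0 := by
    have a1 : ((k + 1).choose 2 : K) = 0 := by
      rw [CharP.cast_eq_zero_iff K p, hq]
      exact hp.dvd_choose_pow (by decide) (by omega)
    have a2 : t.choose 2 = t * (2 * o + 1) * (k + 1).choose 2 := by
      refine Nat.eq_of_mul_eq_mul_left (show 0 < 2 by decide) ?_
      have b : ∀ n : ℕ, 2 * (n + 1).choose 2 = (n + 1) * n := fun n => by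
        rw [Nat.choose_two_right, Nat.add_sub_cancel, mul_comm (n + 1)]
        exact Nat.mul_div_cancel' (even_iff_two_dvd.1 (Nat.even_mul_succ_self n))
      rw [mul_left_comm, b k]
      conv_lhs => rw [ht, b, ← ht]
      ring
    rw [a2, Nat.cast_mul, a1, mul_zero]
  obtain ⟨c, hc, c0, c1⟩ : ∃ c : E, c + σ c = 0 ∧ c ≠ 0 ∧ c ≠ 1 := by
    by_contra hn
    have := Nat.card_le_card_of_injective (fun c : {c : E // c + σ c = 0} => (c.1 = 0 : Prop))
      fun a b e => Subtype.ext (by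
        have e' : a.1 = 0 ↔ b.1 = 0 := iff_of_eq e
        by_cases ha : a.1 = 0
        · rw [ha, e'.1 ha]
        · rw [by_contra fun h => hn ⟨a.1, a.2, ha, h⟩,
            by_contra fun h => hn ⟨b.1, b.2, mt e'.2 ha, h⟩])
    rw [kt.cardS, Nat.card_eq_fintype_card, Fintype.card_prop] at this
    omega
  have c0' : algebraMap E K c ≠ 0 := (_root_.map_ne_zero _).2 c0
  have t2 : 2 ≤ t := by have := kt.t43; omega
  have := Fintype.ofFinite (Rt K t)
  have cP : Fintype.card (Rt K t) = t := by rw [← Nat.card_eq_fintype_card, kt.cardP]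
  have pw : ∀ r ∈ Rt K t, ((z * r : Kˣ) : K) ^ t = (z : K) ^ t := fun r hr => by
    rw [← Units.val_pow_eq_pow_val, mul_pow, show r ^ t = 1 from hr, mul_one,
      Units.val_pow_eq_pow_val]
  have ne : ∀ r ∈ Rt K t, r ≠ 1 → z * r ≠ 1 := fun r hr r1 e =>
    r1 (kt.ZP r (by rw [eq_inv_of_mul_eq_one_right e]; exact inv_mem hz) hr)
  have ev : ∀ r ∈ Rt K t, r ≠ 1 → (G t ((z : K) ^ t) (algebraMap E K c)).eval (kap (z * r) - 1) = 0 ∧
      (G t ((z : K) ^ t) 0).eval (kap (z * r) - 1) = 0 := fun r hr r1 => by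
    obtain ⟨r', hr', r1', e⟩ := cl c hc r hr r1
    exact ⟨pw r' hr' ▸ G_eval t _ (ne r' hr' r1') (by rw [e]; ring),
      pw r hr ▸ G_eval t _ (ne r hr r1) (by ring)⟩
  by_cases z1 : z = 1
  · have := case1 (c := algebraMap E K c) t2 h1
      ((Finset.univ.erase (1 : Rt K t)).image fun r : Rt K t => kap (z * r.1) - 1) ?_ ?_
    · have hd : (-algebraMap E K c) ^ k = -1 := by
        have : (-c) ^ (k + 1) = c := by
          rw [← kt.st.pow, map_neg, eq_neg_of_add_eq_zero_right hc, neg_neg]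
        have := congrArg (algebraMap E K) this
        rw [map_pow, map_neg, pow_succ] at this
        exact mul_right_cancel₀ (neg_ne_zero.2 c0') (by rw [this]; ring)
      rw [ht, Nat.add_sub_cancel, pow_mul, ← map_pow, ← kt.st.pow, eq_neg_of_add_eq_zero_right hc,
        map_neg, pow_mul, hd, Odd.neg_one_pow ⟨o, rfl⟩, neg_inj] at this
      exact c1 ((algebraMap E K).injective (by rw [← this, map_one]))
    · rw [Finset.card_image_of_injOn, Finset.card_erase_of_mem (Finset.mem_univ _), Finset.card_univ,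
        cP]
      intro a ha b hb e
      exact Subtype.ext (mul_left_cancel (kt.kapI _ _
        (ne _ a.2 fun h => (Finset.mem_erase.1 ha).1 (Subtype.ext h))
        (ne _ b.2 fun h => (Finset.mem_erase.1 hb).1 (Subtype.ext h)) (sub_left_injective e)))
    · intro y hy
      obtain ⟨r, hr, rfl⟩ := Finset.mem_image.1 hy
      have := ev r r.2 fun h => (Finset.mem_erase.1 hr).1 (Subtype.ext h)
      rwa [show (z : K) ^ t = 1 by rw [z1, Units.val_one, one_pow]] at this
  have ne' : ∀ r ∈ Rt K t, z * r ≠ 1 := fun r hr => by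
    by_cases r1 : r = 1
    · rwa [r1, mul_one]
    · exact ne r hr r1
  have := case2 (c := algebraMap E K c) (c0 := (z : K) ^ t) (α := 1 - kap z) t2 h1 h2
    (insert (kap z - algebraMap E K c - 1) (Finset.univ.image fun r : Rt K t => kap (z * r.1) - 1)) ?_ ?_
  · exact mul_ne_zero (pow_ne_zero _ z.ne_zero) (pow_ne_zero _ c0') this
  · rw [Finset.card_insert_of_notMem, Finset.card_image_of_injective, Finset.card_univ, cP]
    · intro a b e
      exact Subtype.ext (mul_left_cancel (kt.kapI _ _ (ne' _ a.2) (ne' _ b.2) (sub_left_injective e)))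
    · intro hm
      obtain ⟨r, -, e⟩ := Finset.mem_image.1 hm
      by_cases r1 : r.1 = 1
      · rw [r1, mul_one] at e
        exact c0' (by linear_combination e)
      · obtain ⟨r', hr', r1', e'⟩ := cl c hc r r.2 r1
        exact r1' (mul_eq_left.1 (kt.kapI _ _ (ne' _ hr') z1 (by linear_combination e + e')))
  · intro y hy
    rcases Finset.mem_insert.1 hy with rfl | hy
    · exact ⟨by rw [G_eval t _ z1 (by ring), mul_zero], by ring⟩
    · obtain ⟨r, -, rfl⟩ := Finset.mem_image.1 hy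
      by_cases r1 : r.1 = 1
      · rw [r1, mul_one]
        exact ⟨by ring, by rw [G_eval t _ z1 (by ring), mul_zero]⟩
      · rw [(ev r r.2 r1).1, (ev r r.2 r1).2]
        exact ⟨mul_zero _, mul_zero _⟩

end Cfsg.Agent.H56.UgPoly
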