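import Cfsg.Agent.H18.RfDefs
import Cfsg.Agent.H42.Cls

/-! Project RF, chapter RK: fixed points of an element of `M24` on the two modules of order
`2 ^ 11`. -/

set_option autoImplicit false

namespace Cfsg.Agent.H56.RfRk

open Cfsg Subgroup Cfsg.Agent.H18.MaxOff Cfsg.Agent.H18.Rf Cfsg.Agent.H48
open scoped symmDiff Pointwise

universe u

/-- the pair moved at a point -/
def DD (g : M24) (a : GolayPt) : Finset GolayPt := {a} ∆ {g • a}

theorem card_pt : Fintype.card GolayPt = 24 := by decide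

theorem mem_DD {g : M24} {a i : GolayPt} : i ∈ DD g a ↔ (i = a ∧ i ≠ g • a) ∨ (i = g • a ∧ i ≠ a) := by
  simp [DD, Finset.mem_symmDiff]

theorem DD_eq {g : M24} {a b : GolayPt} (h : DD g a = DD g b) (hab : a ≠ b) (ha : g • a ≠ a) :
    g • a = b ∧ g • b = a := by
  have h1 : a ∈ DD g b := h ▸ mem_DD.2 (Or.inl ⟨rfl, ha.symm⟩)
  rcases mem_DD.1 h1 with ⟨e, -⟩ | ⟨e, -⟩
  · exact absurd e hab
  have h2 : b ∈ DD g a := h ▸ mem_DD.2 (Or.inl ⟨rfl, fun k => hab (e.trans k.symm)⟩)
  rcases mem_DD.1 h2 with ⟨e', -⟩ | ⟨e', -⟩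
  · exact absurd e'.symm hab
  exact ⟨e'.symm, e.symm⟩

theorem card_DD (g : M24) (a : GolayPt) : (DD g a).card ≤ 2 :=
  (Finset.card_le_card (Finset.symmDiff_subset_union (s := {a}) (t := {g • a}))).trans
    (Finset.card_union_le _ _)

theorem DD_word {g : M24} {a b : GolayPt} (h : IsWord (DD g a ∆ DD g b)) : DD g a = DD g b := by
  have h1 := (Finset.card_le_card (Finset.symmDiff_subset_union (s := DD g a) (t := DD g b))).trans
    (Finset.card_union_le _ _)
  have h2 := card_DD g a
  have h3 := card_DD g b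
  exact symmDiff_eq_bot.1 (h.eq_empty_of_card_lt (by omega))

theorem mem_msmul (g : M24) (c : Finset GolayPt) (i : GolayPt) : g • i ∈ g • c ↔ i ∈ c :=
  Finset.smul_mem_smul_finset_iff g

theorem word_smul (g : M24) {c : Finset GolayPt} (hc : IsWord c) : IsWord (g • c) :=
  hc.smul g.2

theorem moved {g : M24} (h : g ≠ 1) : 8 ≤ (H42.fixSet g)ᶜ.card := by
  obtain ⟨a, ha⟩ : ∃ a : GolayPt, g • a ≠ a := by
    by_contra k
    push Not at k
    exact h (Subtype.ext (Equiv.ext k))
  obtain ⟨c, hc, e⟩ := exists_word_inter {a, g • a} {a}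
    (Finset.card_le_two.trans (by norm_num)) (by simp)
  have h1 : a ∈ c := (Finset.mem_inter.1 (e ▸ Finset.mem_singleton_self a : a ∈ c ∩ {a, g • a})).1
  have h2 : g • a ∉ c := fun k => ha (Finset.mem_singleton.1
    (e ▸ Finset.mem_inter.2 ⟨k, by simp⟩ : g • a ∈ ({a} : Finset GolayPt)))
  have h3 : 8 ≤ (c ∆ (g • c)).card := not_lt.1 fun k => by
    have := (hc.symmDiff (word_smul g hc)).eq_empty_of_card_lt k
    have h4 : g • a ∈ c ∆ (g • c) := Finset.mem_symmDiff.2 (Or.inr ⟨(mem_msmul g c a).2 h1, h2⟩)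
    rw [this] at h4
    exact Finset.notMem_empty _ h4
  refine h3.trans (Finset.card_le_card fun i hi => Finset.mem_compl.2 fun k => ?_)
  rw [H42.mem_fixSet] at k
  have := mem_msmul g c i
  rw [k] at this
  rw [Finset.mem_symmDiff, this] at hi
  tauto

theorem card_fix_le {g : M24} (h : g * g = 1) (h1 : g ≠ 1) : (H42.fixSet g).card ≤ 8 := by
  have : Fact (Nat.Prime 2) := ⟨Nat.prime_two⟩
  rcases H42.invol_classes (orderOf_eq_prime (by rw [pow_two, h]) h1) with ⟨k, rfl⟩ | ⟨k, rfl⟩ <;>
    rw [H42.card_fixSet_conj]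
  · rw [H42.card_fixSet_z24]
  · rw [H42.card_fixSet_t24]; omega

theorem nine_image {g : M24} (h : g ≠ 1) : 9 ≤ (Finset.univ.image (DD g)).card := by
  by_cases h2 : g * g = 1
  · have h3 := card_fix_le h2 h
    have h4 : (H42.fixSet g)ᶜ.card ≤ 2 * ((H42.fixSet g)ᶜ.image (DD g)).card := by
      refine Finset.card_le_mul_card_image _ 2 fun d hd => ?_
      obtain ⟨a, ha, rfl⟩ := Finset.mem_image.1 hd
      rw [Finset.mem_compl, H42.mem_fixSet] at ha
      refine (Finset.card_le_card (t := {a, g • a}) fun b hb => ?_).trans Finset.card_le_two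
      by_cases e : a = b
      · simp [e]
      · simp [(DD_eq (Finset.mem_filter.1 hb).2.symm e ha).1]
    rw [Finset.card_compl, card_pt] at h4
    rcases (H42.fixSet g).eq_empty_or_nonempty with e | ⟨b, hb⟩
    · rw [e] at h4
      have := Finset.card_le_card (Finset.image_subset_image (f := DD g)
        (Finset.subset_univ (∅ : Finset GolayPt)ᶜ))
      rw [Finset.card_empty] at h4
      omega
    · have h5 : DD g b ∉ (H42.fixSet g)ᶜ.image (DD g) := fun k => by
        obtain ⟨a, ha, e⟩ := Finset.mem_image.1 k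
        have hab : a ≠ b := fun e' => Finset.mem_compl.1 ha (e' ▸ hb)
        rw [Finset.mem_compl, H42.mem_fixSet] at ha
        rw [H42.mem_fixSet] at hb
        exact hab ((DD_eq e hab ha).2.symm.trans hb)
      have h6 : insert (DD g b) ((H42.fixSet g)ᶜ.image (DD g)) ⊆ Finset.univ.image (DD g) :=
        Finset.insert_subset (Finset.mem_image_of_mem _ (Finset.mem_univ _))
          (Finset.image_subset_image (Finset.subset_univ _))
      have := Finset.card_le_card h6
      rw [Finset.card_insert_of_notMem h5] at this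
      omega
  · have h3 := moved h2
    have key : ∀ a ∈ (H42.fixSet (g * g))ᶜ, ∀ b, DD g a = DD g b → a = b := fun a ha b e => by
      rw [Finset.mem_compl, H42.mem_fixSet, mul_smul] at ha
      by_contra hab
      obtain ⟨e1, e2⟩ := DD_eq e hab fun k => ha (by rw [k, k])
      exact ha (by rw [e1, e2])
    have h4 : ((H42.fixSet (g * g))ᶜ.image (DD g)).card = (H42.fixSet (g * g))ᶜ.card :=
      Finset.card_image_of_injOn fun a ha b _ e => key a ha b e
    rcases (H42.fixSet (g * g)).eq_empty_or_nonempty with e | ⟨b, hb⟩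
    · rw [e, Finset.compl_empty] at h4
      rw [h4, Finset.card_univ, card_pt]
      omega
    · have h5 : DD g b ∉ (H42.fixSet (g * g))ᶜ.image (DD g) := fun k => by
        obtain ⟨a, ha, e⟩ := Finset.mem_image.1 k
        exact Finset.mem_compl.1 ha (key a ha b e ▸ hb)
      have h6 : insert (DD g b) ((H42.fixSet (g * g))ᶜ.image (DD g)) ⊆ Finset.univ.image (DD g) :=
        Finset.insert_subset (Finset.mem_image_of_mem _ (Finset.mem_univ _))
          (Finset.image_subset_image (Finset.subset_univ _))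
      have := Finset.card_le_card h6
      rw [Finset.card_insert_of_notMem h5] at this
      omega

theorem exists_nine {g : M24} (h : g ≠ 1) : ∃ R : Finset GolayPt, 9 ≤ R.card ∧
    ∀ a ∈ R, ∀ b ∈ R, IsWord (DD g a ∆ DD g b) → a = b := by
  obtain ⟨R, -, h1, h2⟩ := Finset.exists_subset_injOn_image_eq_of_surjOn (f := DD g) Set.univ
    (Finset.univ.image (DD g)) fun d hd => by
      obtain ⟨a, -, rfl⟩ := Finset.mem_image.1 hd
      exact ⟨a, trivial, rfl⟩
  refine ⟨R, ?_, fun a ha b hb e => h1 ha hb (DD_word e)⟩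
  rw [← Finset.card_image_of_injOn h1, h2]
  exact nine_image h

theorem even_pair (a b : GolayPt) : Even (({a} : Finset GolayPt) ∆ {b}).card := by
  by_cases e : a = b
  · simp [e]
  · have : ({a} : Finset GolayPt) ∆ {b} = {a, b} := by
      ext i
      simp only [Finset.mem_symmDiff, Finset.mem_singleton, Finset.mem_insert]
      constructor
      · tauto
      · rintro (rfl | rfl)
        · exact Or.inl ⟨rfl, e⟩
        · exact Or.inr ⟨rfl, Ne.symm e⟩
    rw [this, Finset.card_pair e]
    exact even_two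

theorem smul_pair (g : M24) (a b : GolayPt) :
    g • (({a} : Finset GolayPt) ∆ {b}) = {g • a} ∆ {g • b} := by
  rw [Finset.smul_finset_symmDiff, Finset.smul_finset_singleton, Finset.smul_finset_singleton]

theorem rkT : RkTStmt.{u} := by
  intro G _ _ V ρ ψ hS hT n hn hc
  by_contra hnV
  set g := ρ ⟨n, hn⟩ with hg
  obtain ⟨R, hR, hinj⟩ := exists_nine (g := g) fun k => hnV ((hS.ker _).1 k)
  obtain ⟨b0, -⟩ : R.Nonempty := Finset.card_pos.1 (by omega)
  let f : R × ↥(V ⊓ C1 n) → V := fun p =>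
    ⟨ψ ({p.1.1} ∆ {b0}) * p.2.1, mul_mem (hT.mem _ (even_pair _ _)) p.2.2.1⟩
  have hf : Function.Injective f := by
    rintro ⟨⟨a, ha⟩, y, hy⟩ ⟨⟨b, hb⟩, z, hz⟩ e
    have e1 : ψ ({a} ∆ {b0}) * y = ψ ({b} ∆ {b0}) * z := congrArg Subtype.val e
    have e2 : ψ ({b} ∆ {a}) = z * y⁻¹ := by
      have h1 : ({b} : Finset GolayPt) ∆ {a} = ({b} ∆ {b0}) ∆ ({a} ∆ {b0}) := by
        rw [symmDiff_symmDiff_symmDiff_comm, symmDiff_self, symmDiff_bot]
      have h2 := hS.el _ (hT.mem _ (even_pair b b0))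
      rw [h1, hT.add _ _ (even_pair _ _) (even_pair _ _), eq_mul_inv_of_mul_eq e1, ← mul_assoc,
        ← mul_assoc, h2, one_mul]
    have e3 : n * ψ ({b} ∆ {a}) * n⁻¹ = ψ ({b} ∆ {a}) := by
      have : z * y⁻¹ ∈ C1 n := mul_mem hz.2 (inv_mem hy.2)
      rw [e2, mem_centralizer_singleton_iff.1 this |>.symm, mul_inv_cancel_right]
    have e4 := hT.act ⟨n, hn⟩ _ (even_pair b a)
    rw [← hg, smul_pair] at e4
    have e5 : ψ (({b} ∆ {a}) ∆ ({g • b} ∆ {g • a})) = 1 := by
      rw [hT.add _ _ (even_pair _ _) (even_pair _ _), ← e4, e3]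
      exact hS.el _ (hT.mem _ (even_pair b a))
    have e6 : Even ((({b} : Finset GolayPt) ∆ {a}) ∆ ({g • b} ∆ {g • a})).card := by
      have h1 := H42.card_symmDiff_add (({b} : Finset GolayPt) ∆ {a}) ({g • b} ∆ {g • a})
      obtain ⟨r, hr⟩ := even_pair b a
      obtain ⟨s, hs⟩ := even_pair (g • b) (g • a)
      rw [Nat.even_iff]
      omega
    have e7 := (hT.ker _ e6).1 e5
    rw [symmDiff_symmDiff_symmDiff_comm] at e7
    obtain rfl := hinj b hb a ha e7
    obtain rfl := mul_left_cancel e1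
    rfl
  have := Nat.card_le_card_of_injective f hf
  rw [Nat.card_prod, hS.card, Nat.card_eq_fintype_card, Fintype.card_coe] at this
  have h2 := Nat.mul_le_mul hR hc
  omega

theorem dot_DD (w : GolayPt → ZMod 2) (g : M24) (a : GolayPt) :
    ∑ i, w i * ind (DD g a) i = w a + w (g • a) := by
  have h : ∀ b, ∑ i, w i * ind {b} i = w b := fun b => by
    simp only [ind, Finset.mem_singleton, mul_ite, mul_one, mul_zero, Finset.sum_ite_eq',
      Finset.mem_univ, if_true]
  rw [DD, ind_symmDiff, ← h a, ← h (g • a), ← Finset.sum_add_distrib]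
  simp only [Pi.add_apply, mul_add]

/-- the words whose image is the word or its complement -/
def TT (g : M24) : Submodule (ZMod 2) (GolayPt → ZMod 2) where
  carrier := {w | w ∈ golayCode ∧ ∀ a b, w a + w (g • a) = w b + w (g • b)}
  zero_mem' := ⟨zero_mem _, fun _ _ => rfl⟩
  add_mem' := by
    rintro v w ⟨h1, h2⟩ ⟨h3, h4⟩
    refine ⟨add_mem h1 h3, fun a b => ?_⟩
    simp only [Pi.add_apply]
    linear_combination h2 a b + h4 a b
  smul_mem' := by
    rintro r w ⟨h1, h2⟩
    refine ⟨Submodule.smul_mem _ _ h1, fun a b => ?_⟩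
    simp only [Pi.smul_apply, smul_eq_mul]
    linear_combination r * h2 a b

theorem card_TT {g : M24} (h : g ≠ 1) : Nat.card (TT g) < 2 ^ 9 := by
  by_contra hc
  obtain ⟨R, hR, hinj⟩ := exists_nine h
  obtain ⟨b0, -⟩ : R.Nonempty := Finset.card_pos.1 (by omega)
  rw [Module.natCard_eq_pow_finrank (K := ZMod 2), Nat.card_zmod, not_lt] at hc
  have h1 := (Nat.pow_le_pow_iff_right (by norm_num)).1 hc
  have h2 : Nat.card (dotF.orthogonal (TT g)) ≤ 2 ^ 15 := by
    rw [Module.natCard_eq_pow_finrank (K := ZMod 2), Nat.card_zmod,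
      LinearMap.BilinForm.finrank_orthogonal dotF_nondeg]
    refine Nat.pow_le_pow_right (by norm_num) ?_
    rw [Module.finrank_fintype_fun_eq_card, card_pt]
    omega
  have h3 : Nat.card golayCode = 4096 := by
    rw [Module.natCard_eq_pow_finrank (K := ZMod 2), S0358.result]
    simp
  let f : R × golayCode → dotF.orthogonal (TT g) := fun p =>
    ⟨ind (DD g p.1.1) + ind (DD g b0) + p.2.1, fun w hw => by
      change dotF w _ = 0
      rw [map_add, map_add, dotF_apply, dotF_apply, dotF_apply, dot_DD, dot_DD, hw.2 p.1.1 b0,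
        S0362.result _ _ hw.1 p.2.2, CharTwo.add_self_eq_zero, add_zero]⟩
  have hf : Function.Injective f := by
    rintro ⟨⟨a, ha⟩, y, hy⟩ ⟨⟨b, hb⟩, z, hz⟩ e
    have e1 : ind (DD g a) + ind (DD g b0) + y = ind (DD g b) + ind (DD g b0) + z :=
      congrArg Subtype.val e
    have e2 : IsWord (DD g a ∆ DD g b) := by
      rw [isWord_iff, ind_symmDiff]
      have : ind (DD g a) + ind (DD g b) = z - y + (2 : ZMod 2) • ind (DD g b) := by
        rw [two_smul]
        linear_combination e1
      rw [this, show (2 : ZMod 2) = 0 from rfl, zero_smul, add_zero]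
      exact sub_mem hz hy
    obtain rfl := hinj a ha b hb e2
    obtain rfl := add_left_cancel e1
    rfl
  have := Nat.card_le_card_of_injective f hf
  rw [Nat.card_prod, h3, Nat.card_eq_fintype_card, Fintype.card_coe] at this
  omega

theorem ind_inj {c d : Finset GolayPt} (h : ind c = ind d) : c = d := by
  rw [← support_ind c, h, support_ind]

theorem rkG : RkGStmt.{u} := by
  intro G _ _ V ρ ψ hS hG n hn hc
  by_contra hnV
  set g := ρ ⟨n, hn⟩ with hg
  have h1 := card_TT (g := g) fun k => hnV ((hS.ker _).1 k)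
  choose c hc1 hc2 using hG.sur
  have hm : ∀ d, IsWord d → ψ d ∈ C1 n → ind d ∈ TT g := fun d hd hd' => by
    refine ⟨(isWord_iff _).1 hd, ?_⟩
    have e3 : n * ψ d * n⁻¹ = ψ d := by
      rw [mem_centralizer_singleton_iff.1 hd' |>.symm, mul_inv_cancel_right]
    have e4 := hG.act ⟨n, hn⟩ d hd
    rw [← hg] at e4
    have e5 : ψ (d ∆ (g • d)) = 1 := by
      rw [hG.add _ _ hd (word_smul g hd), ← e4, e3]
      exact hS.el _ (hG.mem _ hd)
    have e6 : ∀ a, ind d a + ind d (g • a) = ind (d ∆ (g • d)) (g • a) := fun a => by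
      rw [ind_symmDiff, Pi.add_apply, add_comm]
      simp only [ind, mem_msmul]
    intro a b
    rw [e6, e6]
    rcases (hG.ker _ (hd.symmDiff (word_smul g hd))).1 e5 with e | e <;> simp [e, ind]
  have hu : ψ Finset.univ = 1 := (hG.ker _ isWord_univ).2 (Or.inr rfl)
  let k : Bool → Finset GolayPt := fun b => if b then Finset.univ else ∅
  have hk : ∀ b, IsWord (k b) ∧ ψ (k b) = 1 := fun b => by
    cases b
    · exact ⟨isWord_empty, (hG.ker _ isWord_empty).2 (Or.inl rfl)⟩
    · exact ⟨isWord_univ, hu⟩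
  have hψ : ∀ y hy b, ψ (c y hy ∆ k b) = y := fun y hy b => by
    rw [hG.add _ _ (hc1 y hy) (hk b).1, (hk b).2, mul_one, hc2]
  let f : ↥(V ⊓ C1 n) × Bool → TT g := fun p =>
    ⟨ind (c p.1.1 p.1.2.1 ∆ k p.2), hm _ ((hc1 _ _).symmDiff (hk _).1) (by
      rw [hψ]; exact p.1.2.2)⟩
  have hf : Function.Injective f := by
    rintro ⟨⟨y, hy⟩, b⟩ ⟨⟨z, hz⟩, b'⟩ e
    have e1 : c y hy.1 ∆ k b = c z hz.1 ∆ k b' := ind_inj (congrArg Subtype.val e)
    have e2 : y = z := by rw [← hψ y hy.1 b, e1, hψ]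
    subst e2
    have e3 := symmDiff_right_injective _ e1
    have : b = b' := by
      cases b <;> cases b'
      · rfl
      · exact absurd e3 (Finset.univ_nonempty.ne_empty.symm)
      · exact absurd e3 Finset.univ_nonempty.ne_empty
      · rfl
    rw [this]
  have := Nat.card_le_card_of_injective f hf
  rw [Nat.card_prod, Nat.card_eq_fintype_card (α := Bool), Fintype.card_bool] at this
  omega

end Cfsg.Agent.H56.RfRk
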