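import Mathlib
import Cfsg.Agent.H56.SymD
import Cfsg.Agent.H56.ONanPSL
import Cfsg.Agent.H3.Fitting
import Cfsg.Agent.S0042
import Cfsg.Agent.S3704

/-!
Ito's theorem on doubly transitive groups with an intransitive subgroup of index the degree.
-/

set_option autoImplicit false

namespace Cfsg.Agent.H56

open Subgroup H85 MulAction
open scoped Pointwise commutatorElement

theorem exists_abelian_of_nilpotent {G : Type*} [Group G] [Finite G] {K U : Subgroup G}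
    (hU : U ≤ K) (h0 : U ≠ ⊥) (hn : Group.IsNilpotent U) (hK : K ≤ normalizer U) :
    ∃ N ≤ K, N ≠ ⊥ ∧ (∀ g : G, cj g K = K → ∀ n ∈ N, g * n * g⁻¹ ∈ N) ∧
      ∀ a ∈ N, ∀ b ∈ N, a * b = b * a := by
  have hF := H3.le_map_fitting hn hU hK
  set F := map K.subtype (fittingSubgroup K)
  refine ⟨F ⊓ centralizer F, inf_le_left.trans (map_subtype_le _), ?_, fun g hg n hn => ?_,
    fun a ha b hb => hb.2 a ha.1⟩
  · exact H3.inf_centralizer_ne_bot_of_isNilpotent (H3.map_fitting_isNilpotent K) le_rfl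
      le_normalizer fun e => h0 (le_bot_iff.1 (hF.trans e.le))
  · have h1 : cj g F = F := cj_eq_of_mem_normalizer
      (H3.normalizer_le_normalizer_map_fitting K (cj_eq_iff_mem_normalizer.1 hg))
    have := conj_mem_cj (g := g) hn
    rwa [cj_inf, cj_centralizer, h1] at this

section
open Finset
variable {G Ω Y : Type*} [Group G] [Finite G] [MulAction G Ω] [MulAction G Y] [Fintype Ω]
  [Fintype Y] [FaithfulSMul G Ω] [DecidableEq Ω] [DecidableEq Y]
  {I : Ω → Y → Prop} [∀ a y, Decidable (I a y)] {k l : ℕ}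

theorem SymD.ito (d : SymD I k l) (inv : ∀ (g : G) a y, I (g • a) (g • y) ↔ I a y)
    (hfix : ∀ g : G, #{y : Y | g • y = y} = #{a : Ω | g • a = a})
    (h2 : ∀ x y x' y' : Y, x ≠ y → x' ≠ y' → ∃ g : G, g • x = x' ∧ g • y = y')
    {y₀ : Y} {g₀ : G} (hg₀ : g₀ ≠ 1) (hg₀' : ∀ a, I a y₀ → g₀ • a = a) :
    ∃ (L : Subgroup G) (F : Type) (_ : Field F) (_ : Fintype F) (n : ℕ), 3 ≤ n ∧ L.Normal ∧
      centralizer (L : Set G) = ⊥ ∧
      Nonempty (L ≃* Matrix.ProjectiveSpecialLinearGroup (Fin n) F) ∧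
      Nat.card Y * (Fintype.card F - 1) = Fintype.card F ^ n - 1 := by
  have hlt := d.lt
  have hone : ∀ g : G, (∀ a : Ω, g • a = a) → g = 1 := fun g hg =>
    eq_of_smul_eq_smul (α := Ω) fun a => by rw [hg, one_smul]
  have hY : ∀ g : G, (∀ y : Y, g • y = y) → g = 1 := fun g hg => hone g fun z => by
    by_contra hz
    have h1 := d.pt2 z (g • z) (Ne.symm hz)
    rw [filter_congr (q := fun a => I z a) fun a _ =>
      ⟨fun h => h.1, fun h' => ⟨h', hg a ▸ (inv g z a).2 h'⟩⟩, d.pt] at h1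
    omega
  have : FaithfulSMul G Y := ⟨fun {a b} h => by
    rw [← inv_mul_eq_one]
    exact hY _ fun y => by rw [mul_smul, ← h, inv_smul_smul]⟩
  let A : Y → Subgroup G := fun y =>
    { carrier := {g | ∀ a, I a y → g • a = a}
      one_mem' := fun a _ => one_smul _ a
      mul_mem' := fun {g h} hg hh a ha => by rw [mul_smul, hh a ha, hg a ha]
      inv_mem' := fun {g} hg a ha => inv_smul_eq_iff.2 (hg a ha).symm }
  have heqv : ∀ (g : G) y, cj g (A y) = A (g • y) := fun g y => by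
    ext u
    rw [mem_cj]
    refine ⟨fun h a ha => ?_, fun h a ha => ?_⟩
    · have := h (g⁻¹ • a) ((inv g _ _).1 (by rwa [smul_inv_smul]))
      rwa [mul_smul, mul_smul, smul_inv_smul, smul_left_cancel_iff] at this
    · rw [mul_smul, mul_smul, h _ ((inv g a y).2 ha), inv_smul_smul]
  have hconj : ∀ (g : G) y, ∀ u ∈ A y, g * u * g⁻¹ ∈ A (g • y) := fun g y u hu =>
    heqv g y ▸ conj_mem_cj hu
  have hAy : ∀ y, ∀ u ∈ A y, u • y = y := fun y u hu => d.fix_blk inv hu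
  have hti : ∀ x y, x ≠ y → ∀ u ∈ A x, u ∈ A y → u = 1 := fun x y hxy u h1 h2 =>
    hone u (d.two_blk inv hxy h1 h2)
  have hsec : ∀ u ∈ A y₀, ∃ y, y ≠ y₀ ∧ u • y = y := fun u hu => by
    have h1 : k ≤ #{y : Y | u • y = y} := by
      rw [hfix, ← d.blk y₀]
      exact card_le_card fun a ha => by simpa using hu a (mem_filter.1 ha).2
    obtain ⟨y, hy, hy'⟩ := exists_mem_ne (show 1 < #{y : Y | u • y = y} by omega) y₀
    exact ⟨y, hy', (mem_filter.1 hy).2⟩
  have hmove : ∀ C, C ≠ y₀ → ∃ a ∈ A y₀, a • C ≠ C := fun C hC => by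
    by_contra hc
    push Not at hc
    refine hg₀ (hY _ fun C' => ?_)
    by_cases e : C' = y₀
    · rw [e]; exact hAy _ _ hg₀'
    obtain ⟨g, h1, h3⟩ := h2 y₀ C' y₀ C (Ne.symm e) hC.symm
    have := hc _ (h1 ▸ hconj g y₀ g₀ hg₀')
    rwa [← h3, mul_smul, inv_smul_smul, mul_smul, smul_left_cancel_iff] at this
  suffices ∃ U ≤ A y₀, U ≠ ⊥ ∧ Group.IsNilpotent U ∧ A y₀ ≤ normalizer U by
    obtain ⟨U, h1, h3, h4, h5⟩ := this
    obtain ⟨N, hN, hN0, hN1, hN2⟩ := exists_abelian_of_nilpotent h1 h3 h4 h5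
    obtain ⟨⟨n, hn⟩, hn1⟩ := ne_bot_iff_exists_ne_one.1 hN0
    exact onan h2 y₀ N (fun n hn => hAy _ _ (hN hn)) (fun g hg => hN1 g (by rw [heqv, hg])) hN2
      ⟨n, hn, fun e => hn1 (Subtype.ext e), hsec n (hN hn)⟩
  by_cases hcase : ∃ α ∈ A y₀, α ≠ 1 ∧ ∃ x, ¬ I x y₀ ∧ α • x = x
  · obtain ⟨α, hα, hα1, x, hx, hαx⟩ := hcase
    have htop : (stabilizer G x).subgroupOf (A y₀) ≠ ⊤ := by
      intro e
      obtain ⟨C, hC⟩ := card_pos.1 (show 0 < #{y | I x y} by rw [d.pt]; omega)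
      have hC' := (mem_filter.1 hC).2
      obtain ⟨a, ha, ha'⟩ := hmove C fun e => hx (e ▸ hC')
      exact hx (d.trace inv ha ha' (e.ge (mem_top (⟨a, ha⟩ : A y₀))) hC')
    obtain ⟨N, hN, hNn, hNil⟩ := S0042.result ((stabilizer G x).subgroupOf (A y₀))
      ⟨fun e => hα1 (congrArg Subtype.val (e.le (show (⟨α, hα⟩ : A y₀) ∈ _ from hαx))), htop,
        fun g hg => by
          rw [eq_bot_iff]
          rintro s ⟨h1, t, ht, rfl⟩
          refine Subtype.ext (hone _ (d.two_pt inv (g * t * g⁻¹).2 (x := x) (y := (g : G) • x)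
            (Ne.symm hg) hx (fun h => hx ?_) h1 ?_))
          · exact (inv g x y₀).1 ((hAy _ _ g.2).symm ▸ h)
          · have : (t : G) • x = x := ht
            show ((g : G) * t * (g : G)⁻¹) • (g : G) • x = _
            rw [mul_smul, inv_smul_smul, mul_smul, this]⟩
    refine ⟨N.map (A y₀).subtype, map_subtype_le _, fun e => htop ?_, H3.isNilpotent_map hNil _, ?_⟩
    · refine H11.eq_top_of_forall_exists_conj_mem _ fun u => ?_
      by_contra hc
      push Not at hc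
      have h1 : u ∈ N := by
        rw [← SetLike.mem_coe, hN]
        refine Or.inr fun g ⟨t, ht, e⟩ => hc g⁻¹ ?_
        have : u = g * t * g⁻¹ := e.symm
        rw [this]
        simpa [mul_assoc] using ht
      have h3 : (u : G) = 1 := e.le (mem_map_of_mem _ h1)
      exact hc 1 (by rw [show u = 1 from Subtype.ext h3]; simp)
    · intro g hg
      refine mem_normalizer_of_cj_le ?_
      rintro _ ⟨_, ⟨n, hn, rfl⟩, rfl⟩
      exact ⟨_, hNn.conj_mem n hn ⟨g, hg⟩, rfl⟩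
  push Not at hcase
  have hsr : ∀ y, ∀ α ∈ A y, α ≠ 1 → ∀ a, I a y ↔ α • a = a := fun y α hα h1 a => by
    refine ⟨hα a, fun h => ?_⟩
    obtain ⟨g, hg⟩ : ∃ g : G, g • y = y₀ := by
      by_cases e : y = y₀
      · exact ⟨1, by rw [e, one_smul]⟩
      · exact (h2 y y₀ y₀ y e (Ne.symm e)).imp fun _ h => h.1
    by_contra hc
    refine hcase _ (hg ▸ hconj g y α hα) (by simpa using h1) (g • a) (by rwa [← hg, inv]) ?_
    rw [mul_smul, inv_smul_smul, mul_smul, h]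
  have st : ∀ y, ∀ α ∈ A y, ∀ C C', C ≠ y → C' ≠ y → (∀ a, I a y → (I a C ↔ I a C')) →
      α • C = C → α • C' = C' := fun y α hα C C' h1 h3 h4 h5 => by
    by_cases e : α = 1
    · rw [e, one_smul]
    refine d.same_trace inv (hsr y α hα e) ?_ h1 h3 h4 h5
    rw [hfix, ← d.blk y]
    exact congrArg _ (filter_congr fun a _ => (hsr y α hα e a).symm)
  have stt : ∀ y, ∀ α ∈ A y, ∀ β ∈ A y, ∀ C : Y, α • C = C → α • β • C = β • C := by
    intro y α hα β hβ C hC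
    by_cases e : C = y
    · rw [e, hAy _ _ hβ, hAy _ _ hα]
    exact st y α hα C _ e (fun e' => e (by rwa [← hAy _ _ hβ, smul_left_cancel_iff] at e'))
      (fun a ha => by rw [← inv β, hβ a ha]) hC
  have hcomm : ∀ x y, x ≠ y → ∀ u ∈ A x, u • y = y → ∀ b ∈ A y, b • x = x → b * u = u * b := by
    intro x y hxy u hu huy b hb hbx
    rw [← commutatorElement_eq_one_iff_mul_comm]
    refine hti x y hxy _ (mul_mem (hbx ▸ hconj b x u hu) (inv_mem hu)) ?_
    rw [← commutatorElement_inv]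
    exact inv_mem (mul_mem (huy ▸ hconj u y b hb) (inv_mem hb))
  obtain ⟨y₁, hy₁, hgy₁⟩ := hsec g₀ hg₀'
  have quad : ∀ a ∈ A y₀, ∀ b ∈ A y₁, b • y₀ = y₀ → b • a • y₁ = a • y₁ := by
    intro a ha b hb hb₀
    by_cases e : a • y₁ = y₁
    · rw [e, hAy _ _ hb]
    refine st y₁ b hb y₀ _ hy₁.symm e (fun z hz => ⟨fun h => ha z h ▸ (inv a z y₁).2 hz, fun h => ?_⟩) hb₀
    exact (d.sub_blk hy₁ (Ne.symm e) (fun z h1 h3 => ⟨h1, ha z h3 ▸ (inv a z y₁).2 h1⟩) hz h).2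
  obtain ⟨a, ha, hay⟩ := hmove y₁ hy₁
  let f : ↥(A y₁ ⊓ stabilizer G y₀) → ↥(A y₀ ⊓ stabilizer G y₁) := fun b =>
    ⟨⁅(b : G), a⁆, mul_mem (by
      have := hconj b y₀ a ha
      rwa [show (b : G) • y₀ = y₀ from b.2.2] at this) ((A y₀).inv_mem ha), by
      show ((b : G) * a * (b : G)⁻¹ * a⁻¹) • y₁ = y₁
      rw [mul_smul, mul_smul, quad _ (inv_mem ha) _ (inv_mem b.2).1 (inv_mem b.2).2, mul_smul,
        smul_inv_smul, hAy _ _ b.2.1]⟩
  have hf : Function.Injective f := by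
    intro b c e
    have e1 : (b : G) * a * (b : G)⁻¹ = c * a * (c : G)⁻¹ :=
      mul_right_cancel (congrArg Subtype.val e)
    have h1 : (c : G)⁻¹ * b ∈ A y₁ := mul_mem (inv_mem c.2.1) b.2.1
    have h3 := hconj a y₁ _ h1
    have h4 : a * ((c : G)⁻¹ * b) * a⁻¹ = (c : G)⁻¹ * b := by
      calc a * ((c : G)⁻¹ * b) * a⁻¹ = (c : G)⁻¹ * (c * a * (c : G)⁻¹) * b * a⁻¹ := by group
        _ = (c : G)⁻¹ * b := by rw [← e1]; group
    rw [h4] at h3
    exact Subtype.ext (inv_mul_eq_one.1 (hti _ _ (Ne.symm hay) _ h1 h3)).symm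
  have hb : Function.Bijective f := hf.bijective_of_nat_card_le (by
    obtain ⟨g, h1, h3⟩ := h2 y₀ y₁ y₁ y₀ hy₁.symm hy₁
    rw [← card_cj g, cj_inf, heqv, cj_stabilizer, h1, h3])
  have : IsMulCommutative ↥(A y₀ ⊓ stabilizer G y₁) := ⟨⟨fun u v => by
    obtain ⟨b, rfl⟩ := hb.2 v
    refine Subtype.ext ?_
    have h1 := hcomm y₀ y₁ hy₁.symm u u.2.1 u.2.2 b b.2.1 b.2.2
    have h3 := hcomm y₀ (a • y₁) (fun e => hy₁ (by rwa [← hAy _ _ ha, smul_left_cancel_iff, eq_comm] at e))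
      u u.2.1 (stt y₀ u u.2.1 a ha y₁ u.2.2) _ (hconj a y₁ _ (inv_mem b.2).1) (by
        rw [mul_smul, mul_smul, hAy _ _ (inv_mem ha), ((inv_mem b.2).2 : (b : G)⁻¹ • y₀ = y₀),
          hAy _ _ ha])
    show (u : G) * ((b : G) * a * (b : G)⁻¹ * a⁻¹) = ((b : G) * a * (b : G)⁻¹ * a⁻¹) * u
    calc (u : G) * ((b : G) * a * (b : G)⁻¹ * a⁻¹) = (u * b) * (a * (b : G)⁻¹ * a⁻¹) := by group
      _ = b * ((a * (b : G)⁻¹ * a⁻¹) * u) := by rw [← h1, h3, mul_assoc]
      _ = _ := by group⟩⟩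
  refine ⟨A y₀ ⊓ stabilizer G y₁, inf_le_left,
    fun e => hg₀ (e.le (show g₀ ∈ A y₀ ⊓ stabilizer G y₁ from ⟨hg₀', hgy₁⟩)),
    H3.isNilpotent_of_isMulCommutative, fun g hg => mem_normalizer_of_cj_le ?_⟩
  rintro _ ⟨u, hu, rfl⟩
  refine ⟨hAy _ _ hg ▸ hconj g y₀ u hu.1, ?_⟩
  show (g * u * g⁻¹) • y₁ = y₁
  rw [mul_smul, mul_smul, stt y₀ u hu.1 _ (inv_mem hg) y₁ hu.2, smul_inv_smul]

end

theorem permChar_quot_eq {G Ω : Type*} [Group G] [Finite G] [MulAction G Ω] [Finite Ω]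
    [Nontrivial Ω] (h2 : IsMultiplyPretransitive G Ω 2) (H : Subgroup G)
    (hidx : H.index = Nat.card Ω) (hnt : ¬ IsPretransitive H Ω) :
    (∀ g : G, Nat.card (fixedBy (G ⧸ H) g) = Nat.card (fixedBy Ω g)) ∧
      IsMultiplyPretransitive G (G ⧸ H) 2 := by
  classical
  have := Fintype.ofFinite G
  have hcard : 2 ≤ Nat.card Ω := Finite.one_lt_card
  have htr : IsPretransitive G Ω := by
    have := isMultiplyPretransitive_of_le (G := G) (α := Ω) (n := 2) (m := 1) (by norm_num) hcard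
    exact is_one_pretransitive_iff.1 this
  have hirr := (H11.isIrrCharacter_permChar_sub_one_iff (G := G) Ω).2 h2
  have ht1 : Nat.card (orbitRel.Quotient H Ω) ≠ 1 := by
    intro h1
    obtain ⟨hs, -⟩ := Nat.card_eq_one_iff_unique.1 h1
    refine hnt ⟨fun a b => ?_⟩
    have : (Quotient.mk _ b : orbitRel.Quotient H Ω) = Quotient.mk _ a := hs.elim _ _
    exact Quotient.exact this
  have heq := H11.eq_of_classInner_ne_zero_of_degree_eq
    (H11.isCharacter_permChar_sub_one (G := G) (G ⧸ H)) hirr (by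
      rw [H11.classInner_sub_left, H11.classInner_sub_right, H11.classInner_sub_right,
        H11.classInner_permChar_permChar, H11.classInner_permChar_one_of_isPretransitive,
        H11.classInner_one_one,
        H11.classInner_comm_of_isCharacter H11.isCharacter_one (H11.isCharacter_permChar Ω),
        H11.classInner_permChar_one_of_isPretransitive, S3704.card_orbits_quot_prod, sub_self,
        sub_zero, sub_ne_zero]
      exact_mod_cast ht1) (by
      simp only [Pi.sub_apply, H11.permChar_one]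
      rw [← Subgroup.index_eq_card, hidx])
  have : Nontrivial (G ⧸ H) := Finite.one_lt_card_iff_nontrivial.1 (by
    rw [← Subgroup.index_eq_card, hidx]; exact hcard)
  refine ⟨fun g => ?_, (H11.isIrrCharacter_permChar_sub_one_iff (G := G) (G ⧸ H)).1 (heq ▸ hirr)⟩
  have := congrFun heq g
  simp only [Pi.sub_apply, H11.permChar_apply, sub_left_inj] at this
  exact_mod_cast this

/-- Ito's theorem -/
theorem ito {G Ω : Type*} [Group G] [Finite G] [MulAction G Ω] [FaithfulSMul G Ω] [Finite Ω]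
    (h2 : IsMultiplyPretransitive G Ω 2) (H : Subgroup G) (hidx : H.index = Nat.card Ω)
    (hnt : ¬ IsPretransitive H Ω) (hfix : ∀ a : Ω, ∃ h : H, h • a ≠ a)
    (hunf : ∃ a : Ω, ∃ h : H, h ≠ 1 ∧ ∀ b ∈ orbit H a, h • b = b) :
    ∃ (m : ℕ) (F : Type) (_ : Field F) (_ : Fintype F), 2 ≤ m ∧
      Nat.card Ω = (Fintype.card F ^ (m + 1) - 1) / (Fintype.card F - 1) ∧ ∃ N : Subgroup G,
      N.Normal ∧ Nonempty (N ≃* Matrix.ProjectiveSpecialLinearGroup (Fin (m + 1)) F) ∧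
      centralizer (N : Set G) = ⊥ := by
  classical
  obtain ⟨a, h, h1, hh⟩ := hunf
  obtain ⟨u, hu⟩ := hfix a
  have : Nontrivial Ω := ⟨⟨_, _, hu⟩⟩
  obtain ⟨hch, h2'⟩ := permChar_quot_eq h2 H hidx hnt
  have := Fintype.ofFinite Ω
  have := Fintype.ofFinite (G ⧸ H)
  let I : Ω → G ⧸ H → Prop := fun b y => ∃ g : G, g • ((1 : G) : G ⧸ H) = y ∧ g • a = b
  have inv : ∀ (g : G) b y, I (g • b) (g • y) ↔ I b y := fun g b y =>
    ⟨fun ⟨k, h1, h2⟩ => ⟨g⁻¹ * k, by rw [mul_smul, h1, inv_smul_smul],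
      by rw [mul_smul, h2, inv_smul_smul]⟩,
    fun ⟨k, h1, h2⟩ => ⟨g * k, by rw [mul_smul, h1], by rw [mul_smul, h2]⟩⟩
  have hI : ∀ b, I b ((1 : G) : G ⧸ H) ↔ b ∈ orbit H a := fun b =>
    ⟨fun ⟨g, h1, h2⟩ => ⟨⟨g, stabilizer_quotient H ▸ h1⟩, h2⟩,
      fun ⟨g, h2⟩ => ⟨g, (stabilizer_quotient H).ge g.2, h2⟩⟩
  obtain ⟨c, hc⟩ : ∃ c, c ∉ orbit H a := by
    by_contra hc
    push Not at hc
    refine hnt ⟨fun x y => ?_⟩
    obtain ⟨g, rfl⟩ := hc x
    obtain ⟨k, rfl⟩ := hc y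
    exact ⟨k * g⁻¹, by rw [mul_smul, inv_smul_smul]⟩
  obtain ⟨w, hw⟩ := hfix c
  have h2'' : ∀ x y x' y' : G ⧸ H, x ≠ y → x' ≠ y' → ∃ g : G, g • x = x' ∧ g • y = y' :=
    fun a b c d hab hcd => is_two_pretransitive_iff.1 h2' hab hcd
  obtain ⟨k, l, d⟩ := exists_symD I inv
    (fun a b c d hab hcd => is_two_pretransitive_iff.1 h2 hab hcd) h2''
    (by rw [← Nat.card_eq_fintype_card, ← Nat.card_eq_fintype_card, ← hidx, index_eq_card])
    hu hw ((hI _).2 (mem_orbit a u)) ((hI _).2 (mem_orbit_self a))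
    (fun e => hc (mem_orbit_iff.2 (by
      obtain ⟨g, hg⟩ := (hI _).1 e
      exact ⟨w⁻¹ * g, by rw [mul_smul, inv_smul_eq_iff]; exact hg⟩))) (fun e => hc ((hI _).1 e))
  obtain ⟨L, F, _, _, n, h3, hL, hc, e, hcard⟩ := d.ito inv (fun g => by
      have := hch g
      rw [Nat.card_eq_fintype_card, Nat.card_eq_fintype_card, Fintype.card_subtype,
        Fintype.card_subtype] at this
      exact this) h2'' (g₀ := h) (fun e => h1 (Subtype.ext e)) fun b hb => hh b ((hI b).1 hb)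
  obtain ⟨m, rfl⟩ : ∃ m, n = m + 1 := ⟨n - 1, by omega⟩
  refine ⟨m, F, inferInstance, inferInstance, by omega, ?_, L, hL, e, hc⟩
  rw [← hcard, ← index_eq_card, hidx, Nat.mul_div_cancel _ (by
    have := Fintype.one_lt_card (α := F); omega)]

end Cfsg.Agent.H56
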