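import Cfsg.Agent.H24.JmALLD
import Cfsg.Agent.H44.JmTI
import Cfsg.Agent.H86.JmCONG
import Cfsg.Agent.H33.J4Odd1

/-!
# Subgroups of order `141831360` of the fourth Janko group are maximal
-/

set_option autoImplicit false

namespace Cfsg.Agent.H56.JU

open Subgroup Cfsg.Agent.H97.JM

universe u

variable {G : Type u} [Group G] [Finite G]

theorem not_full {L M H : Subgroup G} (hL : IsCoatom L) (hMH : M ≤ H) (hH : H ≠ ⊤)
    (hc : ¬ Nat.card M ∣ Nat.card L) : Nat.card ↥(H ⊓ L) ≠ Nat.card L := fun e => by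
  have h1 : H ⊓ L = L := eq_of_le_of_card_ge inf_le_right e.ge
  have h2 : L ≤ H := h1 ▸ inf_le_left
  rcases h2.eq_or_lt with h3 | h3
  · exact hc (card_dvd_of_le (h3 ▸ hMH))
  · exact hH (hL.2 H h3)

theorem coat {p : ℕ} [Fact p.Prime] (h2 : ¬ p ^ (1 + 1) ∣ Nat.card G)
    (h : ∀ U : Sylow p G, IsCoatom (normalizer ((U : Subgroup G) : Set G))) {a : G}
    (ha : orderOf a = p) : IsCoatom (normalizer ((zpowers a : Subgroup G) : Set G)) := by
  obtain ⟨P, e⟩ := H33.J4O.exists_sylow (p := p) (k := 1) (A := zpowers a)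
    (by rw [Nat.card_zpowers, ha, pow_one]) h2
  exact e ▸ h P

theorem exo {p : ℕ} [Fact p.Prime] {H : Subgroup G} (h : p ∣ Nat.card H) :
    ∃ a ∈ H, orderOf a = p := by
  obtain ⟨x, hx⟩ := exists_prime_orderOf_dvd_card' p h
  exact ⟨x, x.2, by rw [← hx, Subgroup.orderOf_coe]⟩

theorem sieve : allD (fun n => !(n % 141831360 == 0 && n / 106480 % 1331 == 1 &&
    n / 222 % 37 == 1) || n == 141831360 || n == 65049153707704320) = true := by decide +kernel

theorem maxM (Γ : Ctx G) (h11 : ∀ U : Sylow 11 G, IsCoatom (normalizer ((U : Subgroup G) : Set G)))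
    (h37 : ∀ U : Sylow 37 G, IsCoatom (normalizer ((U : Subgroup G) : Set G)))
    (h43 : ∀ U : Sylow 43 G, IsCoatom (normalizer ((U : Subgroup G) : Set G)))
    (M : Subgroup G) (hM : Nat.card M = 141831360) : IsCoatom M := by
  have f11 := Fact.mk (show Nat.Prime 11 by norm_num)
  have f37 := Fact.mk (show Nat.Prime 37 by norm_num)
  have f43 := Fact.mk (show Nat.Prime 43 by norm_num)
  refine ⟨fun e => ?_, fun H hMH => ?_⟩
  · rw [e, card_top, Γ.card] at hM
    norm_num at hM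
  by_contra hH
  have hd : Nat.card H ∣ 86775571046077562880 := Γ.card ▸ H.card_subgroup_dvd_card
  have hMd : 141831360 ∣ Nat.card H := hM ▸ card_dvd_of_le hMH.le
  -- the prime eleven
  obtain ⟨A, hA⟩ := Sylow.exists_subgroup_card_pow_prime (G := M) 11 (n := 3) (by rw [hM]; norm_num)
  obtain ⟨U, hU⟩ := H33.J4O.exists_sylow (p := 11) (k := 3) (A := A.map M.subtype)
    (by rw [card_map_of_injective M.subtype_injective, hA]) (by rw [Γ.card]; norm_num)
  have hUM : (U : Subgroup G) ≤ M := hU ▸ map_subtype_le A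
  obtain ⟨u1, u2⟩ := Γ.n11 U
  have e11 : Nat.card H / 106480 % 1331 = 1 := by
    have t1 := pTI G Γ U M hUM
    have t2 := pTI G Γ U H (hUM.trans hMH.le)
    have t3 := not_full (h11 U) hMH.le hH (by rw [hM, u2]; norm_num)
    obtain ⟨e, he⟩ : 1331 ∣ Nat.card ↥(M ⊓ normalizer ((U : Subgroup G) : Set G)) :=
      u1 ▸ card_dvd_of_le (le_inf hUM le_normalizer)
    have t4 : Nat.card ↥(M ⊓ normalizer ((U : Subgroup G) : Set G)) ∣
        Nat.card ↥(H ⊓ normalizer ((U : Subgroup G) : Set G)) :=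
      card_dvd_of_le (inf_le_inf_right _ hMH.le)
    have t5 : Nat.card ↥(H ⊓ normalizer ((U : Subgroup G) : Set G)) ∣ 319440 :=
      u2 ▸ card_dvd_of_le inf_le_right
    rw [he] at t1 t4
    rw [hM] at t1
    rw [u2] at t3
    have t6 : e ∣ 240 := Nat.dvd_of_mul_dvd_mul_left (show 0 < 1331 by norm_num) (t4.trans t5)
    have t7 : ∀ e ≤ 240, e ∣ 240 → 141831360 / (1331 * e) % 1331 = 1 → e = 80 := by decide +kernel
    obtain rfl := t7 e (Nat.le_of_dvd (by norm_num) t6) t6 t1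
    obtain ⟨f, hf⟩ := t4
    rw [hf] at t2 t3 t5
    have t8 : f ∣ 3 := Nat.dvd_of_mul_dvd_mul_left (show 0 < 1331 * 80 by norm_num) t5
    rcases (Nat.dvd_prime Nat.prime_three).1 t8 with rfl | rfl
    · exact t2
    · exact absurd rfl t3
  -- the prime thirty-seven
  have e37 : Nat.card H / 222 % 37 = 1 := by
    obtain ⟨a, haM, ha⟩ := exo (p := 37) (H := M) (by rw [hM]; norm_num)
    have n1 := (Γ.big 37 12 (by simp) a ha).2
    have q : ¬ 37 ^ 2 ∣ Nat.card H := fun h => by have := h.trans hd; norm_num at this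
    obtain ⟨d, d1, d2, -, d4⟩ := pCONG G M 37 12 a f37.1 haM ha (by rw [hM]; norm_num) n1
    obtain ⟨d', c1, c2, -, c4⟩ := pCONG G H 37 12 a f37.1 (hMH.le haM) ha q n1
    have t3 := not_full (coat (by rw [Γ.card]; norm_num) h37 ha) hMH.le hH
      (by rw [hM, n1]; norm_num)
    have t4 : Nat.card ↥(M ⊓ normalizer ((zpowers a : Subgroup G) : Set G)) ∣
        Nat.card ↥(H ⊓ normalizer ((zpowers a : Subgroup G) : Set G)) :=
      card_dvd_of_le (inf_le_inf_right _ hMH.le)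
    rw [hM] at d4
    rw [d1, c1] at t4
    rw [c1, n1] at t3
    have t7 : ∀ d ≤ 12, d ∣ 12 → 141831360 / (37 * d) % 37 = 1 → d = 6 := by decide +kernel
    obtain rfl := t7 d (Nat.le_of_dvd (by norm_num) d2) d2 d4
    have t8 : ∀ d' ≤ 12, d' ∣ 12 → 37 * 6 ∣ 37 * d' → 37 * d' ≠ 37 * 12 → d' = 6 := by
      decide +kernel
    obtain rfl := t8 d' (Nat.le_of_dvd (by norm_num) c2) c2 t4 t3
    exact c4
  have s := pALLD _ sieve _ hd
  simp only [Nat.mod_eq_zero_of_dvd hMd, e11, e37, BEq.rfl, Bool.and_self, Bool.not_true,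
    Bool.false_or, Bool.or_eq_true, beq_iff_eq] at s
  rcases s with s | s
  · exact hMH.ne (eq_of_le_of_card_ge hMH.le (by rw [s, hM]))
  · obtain ⟨a, haH, ha⟩ := exo (p := 43) (H := H) (by rw [s]; norm_num)
    have n1 := (Γ.big 43 14 (by simp) a ha).2
    obtain ⟨d, c1, c2, -, c4⟩ := pCONG G H 43 14 a f43.1 haH ha (by rw [s]; norm_num) n1
    have t3 := not_full (coat (by rw [Γ.card]; norm_num) h43 ha) hMH.le hH
      (by rw [hM, n1]; norm_num)
    rw [s] at c4
    rw [c1, n1] at t3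
    have t7 : ∀ d ≤ 14, d ∣ 14 → 65049153707704320 / (43 * d) % 43 = 1 → d = 14 := by
      decide +kernel
    exact t3 (by rw [t7 d (Nat.le_of_dvd (by norm_num) c2) c2 c4])

end Cfsg.Agent.H56.JU
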