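import Cfsg.Agent.H17.LPDefs

/-! Project LP, piece GEN: generators of the pattern subgroups of the model group. -/

set_option autoImplicit false

namespace Cfsg.Agent.H56.LpGen

open Cfsg Subgroup Matrix Cfsg.Agent.H17.LP

theorem ix_succ (i : Fin 5) : ix (i + 1) = i := by revert i; decide

theorem ex_fin {i : ℕ} (h : i ∈ [1, 2, 3, 4, 5]) : ∃ a : Fin 5, i = a + 1 := by
  revert i; decide

theorem fin_mem (a : Fin 5) : (a : ℕ) + 1 ∈ [1, 2, 3, 4, 5] := by revert a; decide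

theorem X_val {i j : Fin 5} (h : i ≠ j) : (X (i + 1) (j + 1)).1 = 1 + single i j 1 := by
  revert i j
  decide +kernel

theorem zz_a (i j : Fin 5) : (zz (i + 1) (j + 1)).a = single i j 1 + single j i 1 := by
  simp only [zz, ix_succ]

theorem xx_mul_g {i j : Fin 5} (h : i ≠ j) (n : N0) (a b : Fin 5) :
    (xx (i + 1) (j + 1) * n).g.1 a b = n.g.1 a b + if a = i then n.g.1 j b else 0 := by
  rw [mul_g, coe_mul']
  change ((X (i + 1) (j + 1)).1 * n.g.1) a b = _
  rw [X_val h, Matrix.add_mul, Matrix.one_mul, Matrix.add_apply]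
  split_ifs with e
  · rw [e, single_mul_apply_same, one_mul]
  · rw [single_mul_apply_of_ne _ _ _ _ _ e]

theorem ne_zero_F {x : F} (h : x ≠ 0) : x = 1 := by revert x; decide

/-- the root elements of a pattern -/
def Gs (S R : ℕ → ℕ → Bool) : Set N0 := {n | ∃ i ∈ [1, 2, 3, 4, 5], ∃ j ∈ [1, 2, 3, 4, 5],
  i ≠ j ∧ (S i j = true ∧ S j i = true ∧ n = zz i j ∨ R i j = true ∧ n = xx i j)}

variable {S R : ℕ → ℕ → Bool} {h : Cl S R}

theorem xx_mem {i j : Fin 5} (hij : i ≠ j) (hR : R (i + 1) (j + 1) = true) :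
    xx (i + 1) (j + 1) ∈ Pat S R h := by
  refine mem_Pat.2 ⟨fun _ _ _ => rfl, fun a b hab => ?_⟩
  change (X (i + 1) (j + 1)).1 a b = _
  rw [X_val hij, Matrix.add_apply, single_apply_of_ne, add_zero]
  rintro ⟨rfl, rfl⟩
  simp [hR] at hab

theorem zz_mem {i j : Fin 5} (h1 : S (i + 1) (j + 1) = true) (h2 : S (j + 1) (i + 1) = true) :
    zz (i + 1) (j + 1) ∈ Pat S R h := by
  refine mem_Pat.2 ⟨fun a b hab => ?_, fun _ _ _ => rfl⟩
  rw [zz_a, Matrix.add_apply, single_apply_of_ne, single_apply_of_ne, add_zero]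
  · rintro ⟨rfl, rfl⟩
    simp [h2] at hab
  · rintro ⟨rfl, rfl⟩
    simp [h1] at hab

theorem cl_le : closure (Gs S R) ≤ Pat S R h := by
  rw [closure_le]
  rintro n ⟨i, hi, j, hj, hij, hn⟩
  obtain ⟨a, rfl⟩ := ex_fin hi
  obtain ⟨b, rfl⟩ := ex_fin hj
  rcases hn with ⟨h1, h2, rfl⟩ | ⟨h1, rfl⟩
  · exact zz_mem h1 h2
  · exact xx_mem (fun e => hij (by rw [e])) h1

theorem xx_cl {i j : Fin 5} (hij : i ≠ j) (hR : R (i + 1) (j + 1) = true) :
    xx (i + 1) (j + 1) ∈ closure (Gs S R) :=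
  subset_closure ⟨_, fin_mem i, _, fin_mem j, fun e => hij (Fin.ext (by omega)), Or.inr ⟨hR, rfl⟩⟩

theorem zz_cl {i j : Fin 5} (hij : i ≠ j) (h1 : S (i + 1) (j + 1) = true)
    (h2 : S (j + 1) (i + 1) = true) : zz (i + 1) (j + 1) ∈ closure (Gs S R) :=
  subset_closure ⟨_, fin_mem i, _, fin_mem j, fun e => hij (Fin.ext (by omega)),
    Or.inl ⟨h1, h2, rfl⟩⟩

theorem alt_part (s : Finset (Fin 5 × Fin 5)) : ∀ n ∈ Pat S R h, n.g = 1 →
    (∀ p ∉ s, p.1 < p.2 → n.a p.1 p.2 = 0) → n ∈ closure (Gs S R) := by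
  induction s using Finset.induction_on with
  | empty =>
    intro n _ h1 h2
    have : n = 1 := N0.ext (by
      ext i j
      rcases lt_trichotomy i j with e | e | e
      · exact h2 (i, j) (by simp) e
      · rw [e]; exact n.alt.2 j
      · rw [n.alt.symm]; exact h2 (j, i) (by simp) e) h1
    rw [this]
    exact one_mem _
  | insert p s hp ih =>
    intro n hn h1 h2
    obtain ⟨i, j⟩ := p
    by_cases c : i < j ∧ n.a i j ≠ 0
    · have hz : zz (i + 1) (j + 1) ∈ closure (Gs S R) := zz_cl c.1.ne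
        (by by_contra k; exact c.2 ((mem_Pat.1 hn).1 i j (by simpa using k)))
        (by by_contra k; exact c.2 (by rw [n.alt.symm]; exact (mem_Pat.1 hn).1 j i (by simpa using k)))
      refine (mul_mem_cancel_left hz).1 (ih _ (mul_mem (cl_le hz) hn) (by rw [mul_g, h1, mul_one]; rfl) ?_)
      rintro ⟨a, b⟩ hq hab
      have e : (zz (i + 1) (j + 1)).g.1 = 1 := rfl
      change _ < _ at hab
      change (zz (i + 1) (j + 1) * n).a a b = 0
      rw [mul_a, e, zz_a, transpose_one, Matrix.one_mul, Matrix.mul_one, Matrix.add_apply,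
        Matrix.add_apply, single_apply_of_ne j i]
      · by_cases e' : (a, b) = (i, j)
        · obtain ⟨rfl, rfl⟩ := Prod.mk.inj e'
          rw [single_apply_same, ne_zero_F c.2]
          rfl
        · rw [single_apply_of_ne, h2 (a, b) (by simp [e', hq]) hab]
          · rfl
          · rintro ⟨rfl, rfl⟩
            exact e' rfl
      · rintro ⟨rfl, rfl⟩
        exact lt_asymm c.1 hab
    · refine ih n hn h1 fun q hq hq' => ?_
      by_cases e : q = (i, j)
      · subst e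
        by_contra k
        exact c ⟨hq', k⟩
      · exact h2 q (by simp [e, hq]) hq'

/-- the first `m` columns are those of the identity -/
def Col (m : ℕ) (n : N0) : Prop := ∀ a b : Fin 5, (b : ℕ) < m → n.g.1 a b = (1 : M5) a b

theorem Col.xx {j : Fin 5} {n : N0} (hn : Col j n) {a b : Fin 5} (hab : a ≠ b) (hb : j ≤ b) :
    Col j (xx (a + 1) (b + 1) * n) := fun c d hd => by
  rw [xx_mul_g hab, hn c d hd, hn b d hd, one_apply_ne (i := b) (j := d), ite_self, add_zero]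
  rintro rfl
  exact absurd hb (not_le.2 hd)

theorem clear (j : Fin 5) (hQ : ∀ n ∈ Pat S R h, Col (j + 1) n → n ∈ closure (Gs S R))
    (s : Finset (Fin 5)) : ∀ n ∈ Pat S R h, Col j n → n.g.1 j j = 1 →
      (∀ i ∉ s, i ≠ j → n.g.1 i j = 0) → n ∈ closure (Gs S R) := by
  induction s using Finset.induction_on with
  | empty =>
    intro n hn h1 h2 h3
    refine hQ n hn fun a b hb => ?_
    rcases Nat.lt_succ_iff_lt_or_eq.1 hb with e | e
    · exact h1 a b e
    · obtain rfl := Fin.ext e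
      by_cases c : a = b
      · rw [c, h2, one_apply_eq]
      · rw [h3 a (by simp) c, one_apply_ne c]
  | insert i s hi ih =>
    intro n hn h1 h2 h3
    by_cases c : i ≠ j ∧ n.g.1 i j ≠ 0
    · have hx : xx (i + 1) (j + 1) ∈ closure (Gs S R) := xx_cl c.1 (by
        by_contra k
        exact c.2 (by rw [(mem_Pat.1 hn).2 i j (by simpa using k), one_apply_ne c.1]))
      refine (mul_mem_cancel_left hx).1 (ih _ (mul_mem (cl_le hx) hn) (h1.xx c.1 le_rfl) ?_
        fun a ha haj => ?_)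
      · rw [xx_mul_g c.1, if_neg c.1.symm, add_zero, h2]
      · rw [xx_mul_g c.1]
        split_ifs with e
        · rw [e, h2, ne_zero_F c.2]
          rfl
        · rw [add_zero, h3 a (by simp [e, ha]) haj]
    · refine ih n hn h1 h2 fun a ha haj => ?_
      by_cases e : a = i
      · subst e
        by_contra k
        exact c ⟨haj, k⟩
      · exact h3 a (by simp [e, ha]) haj

theorem pivot {j : Fin 5} {n : N0} (hn : Col j n) : ∃ i, j ≤ i ∧ n.g.1 i j ≠ 0 := by
  by_contra k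
  push Not at k
  let v : Fin 5 → F := fun a => n.g.1 a j
  have h1 : n.g.1 *ᵥ v = n.g.1 *ᵥ Pi.single j 1 := by
    funext a
    rw [mulVec_single_one]
    change ∑ b, n.g.1 a b * v b = v a
    have : ∀ b, n.g.1 a b * v b = (1 : M5) a b * v b := fun b => by
      by_cases c : j ≤ b
      · simp only [v, k b c, mul_zero]
      · rw [hn a b (not_le.1 c)]
    rw [Finset.sum_congr rfl fun b _ => this b]
    exact congrFun (one_mulVec v) a
  have h2 := congrArg (fun w => (n.g⁻¹).1 *ᵥ w) h1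
  simp only [mulVec_mulVec, ← coe_mul', inv_mul_cancel] at h2
  have h3 : v = Pi.single j 1 := (one_mulVec v).symm.trans (h2.trans (one_mulVec _))
  have h4 := congrFun h3 j
  simp [v, k j le_rfl] at h4

theorem pat_eq (hs : ∀ i j : Fin 5, j < i → R (i + 1) (j + 1) = true → R (j + 1) (i + 1) = true) :
    Pat S R h = closure (Gs S R) := by
  refine le_antisymm ?_ cl_le
  have step : ∀ j : Fin 5, (∀ n ∈ Pat S R h, Col (j + 1) n → n ∈ closure (Gs S R)) →
      ∀ n ∈ Pat S R h, Col j n → n ∈ closure (Gs S R) := fun j hQ n hn h1 => by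
    by_cases c : n.g.1 j j = 0
    · obtain ⟨i, hi, hi'⟩ := pivot h1
      have hij : j ≠ i := fun e => hi' (e ▸ c)
      have hx : xx (j + 1) (i + 1) ∈ closure (Gs S R) := xx_cl hij (hs i j (lt_of_le_of_ne hi hij) (by
        by_contra k
        exact hi' (by rw [(mem_Pat.1 hn).2 i j (by simpa using k), one_apply_ne hij.symm])))
      refine (mul_mem_cancel_left hx).1 (clear j hQ Finset.univ _ (mul_mem (cl_le hx) hn)
        (h1.xx hij hi) ?_ (by simp))
      rw [xx_mul_g hij, if_pos rfl, c, zero_add, ne_zero_F hi']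
    · exact clear j hQ Finset.univ n hn h1 (ne_zero_F c) (by simp)
  have q5 : ∀ n ∈ Pat S R h, Col 5 n → n ∈ closure (Gs S R) := fun n hn h1 =>
    alt_part Finset.univ n hn (Subtype.ext (Matrix.ext fun a b => h1 a b b.2)) (by simp)
  exact fun n hn => step 0 (step 1 (step 2 (step 3 (step 4 q5)))) n hn fun a b hb => absurd hb (by simp)

theorem xx_comm : ∀ i j k : Fin 5, i ≠ j → j ≠ k → i ≠ k → xx (i + 1) (k + 1) * xx (k + 1) (j + 1) *
    xx (i + 1) (k + 1) * xx (k + 1) (j + 1) = xx (i + 1) (j + 1) := by decide +kernel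

theorem zz_comm : ∀ i j k : Fin 5, i ≠ j → j ≠ k → i ≠ k → xx (i + 1) (k + 1) * zz (k + 1) (j + 1) *
    xx (i + 1) (k + 1) * zz (k + 1) (j + 1) = zz (i + 1) (j + 1) := by decide +kernel

theorem zz_symm (i j : ℕ) : zz i j = zz j i := N0.ext (add_comm _ _) rfl

theorem cx {P : Subgroup N0} (i k j : Fin 5) (h1 : xx (i + 1) (k + 1) ∈ P)
    (h2 : xx (k + 1) (j + 1) ∈ P) (hd : i ≠ j ∧ j ≠ k ∧ i ≠ k := by decide) :
    xx (i + 1) (j + 1) ∈ P :=
  xx_comm i j k hd.1 hd.2.1 hd.2.2 ▸ mul_mem (mul_mem (mul_mem h1 h2) h1) h2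

theorem cz {P : Subgroup N0} (i k j : Fin 5) (h1 : xx (i + 1) (k + 1) ∈ P)
    (h2 : zz (k + 1) (j + 1) ∈ P) (hd : i ≠ j ∧ j ≠ k ∧ i ≠ k := by decide) :
    zz (i + 1) (j + 1) ∈ P :=
  zz_comm i j k hd.1 hd.2.1 hd.2.2 ▸ mul_mem (mul_mem (mul_mem h1 h2) h1) h2

theorem le_of {P : Subgroup N0} (hs : ∀ i j : Fin 5, j < i → R (i + 1) (j + 1) = true →
      R (j + 1) (i + 1) = true)
    (hz : ∀ i j : Fin 5, i < j → S (i + 1) (j + 1) = true → zz (i + 1) (j + 1) ∈ P)
    (hx : ∀ i j : Fin 5, i ≠ j → R (i + 1) (j + 1) = true → xx (i + 1) (j + 1) ∈ P) :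
    Pat S R h ≤ P := by
  rw [pat_eq hs, closure_le]
  rintro n ⟨i, hi, j, hj, hij, hn⟩
  obtain ⟨a, rfl⟩ := ex_fin hi
  obtain ⟨b, rfl⟩ := ex_fin hj
  have hab : a ≠ b := fun e => hij (by rw [e])
  rcases hn with ⟨h1, h2, rfl⟩ | ⟨h1, rfl⟩
  · rcases lt_or_gt_of_ne hab with e | e
    · exact hz a b e h1
    · rw [zz_symm]
      exact hz b a e h2
  · exact hx a b hab h1

theorem A0_le (h : Cl (fun _ _ => true) R) : A0 ≤ Pat (fun _ _ => true) R h := fun _ hn =>
  mem_Pat.2 ⟨fun _ _ k => absurd k (by simp), fun a b _ => (mem_Pat.1 hn).2 a b rfl⟩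

theorem zz_A0 (i j : Fin 5) : zz (i + 1) (j + 1) ∈ A0 := zz_mem rfl rfl

theorem la : La = closure {xx 1 2, xx 2 1, xx 2 3, xx 3 2} := by
  refine le_antisymm ?_ ((closure_le _).2 ?_)
  · set P : Subgroup N0 := closure {xx 1 2, xx 2 1, xx 2 3, xx 3 2}
    have h12 : xx 1 2 ∈ P := subset_closure (by simp)
    have h21 : xx 2 1 ∈ P := subset_closure (by simp)
    have h23 : xx 2 3 ∈ P := subset_closure (by simp)
    have h32 : xx 3 2 ∈ P := subset_closure (by simp)
    have h13 : xx 1 3 ∈ P := cx 0 1 2 h12 h23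
    have h31 : xx 3 1 ∈ P := cx 2 1 0 h32 h21
    refine le_of (by decide) (fun _ _ _ k => absurd k (by simp)) fun i j hij hR => ?_
    fin_cases i <;> fin_cases j <;>
      first | exact absurd rfl hij | exact absurd hR (by decide) | assumption
  · rintro n (rfl | rfl | rfl | rfl)
    exacts [xx_mem (i := 0) (j := 1) (by decide) rfl, xx_mem (i := 1) (j := 0) (by decide) rfl,
      xx_mem (i := 1) (j := 2) (by decide) rfl, xx_mem (i := 2) (j := 1) (by decide) rfl]

theorem h0 : H0 = A0 ⊔ closure {xx 1 2, xx 2 1, xx 2 3, xx 3 4, xx 4 3, xx 4 5, xx 5 4} := by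
  refine le_antisymm ?_ (sup_le (A0_le _) ((closure_le _).2 ?_))
  · set P : Subgroup N0 := A0 ⊔ closure {xx 1 2, xx 2 1, xx 2 3, xx 3 4, xx 4 3, xx 4 5, xx 5 4}
    have h12 : xx 1 2 ∈ P := mem_sup_right (subset_closure (by simp))
    have h21 : xx 2 1 ∈ P := mem_sup_right (subset_closure (by simp))
    have h23 : xx 2 3 ∈ P := mem_sup_right (subset_closure (by simp))
    have h34 : xx 3 4 ∈ P := mem_sup_right (subset_closure (by simp))
    have h43 : xx 4 3 ∈ P := mem_sup_right (subset_closure (by simp))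
    have h45 : xx 4 5 ∈ P := mem_sup_right (subset_closure (by simp))
    have h54 : xx 5 4 ∈ P := mem_sup_right (subset_closure (by simp))
    have h35 : xx 3 5 ∈ P := cx 2 3 4 h34 h45
    have h53 : xx 5 3 ∈ P := cx 4 3 2 h54 h43
    have h24 : xx 2 4 ∈ P := cx 1 2 3 h23 h34
    have h25 : xx 2 5 ∈ P := cx 1 3 4 h24 h45
    have h13 : xx 1 3 ∈ P := cx 0 1 2 h12 h23
    have h14 : xx 1 4 ∈ P := cx 0 1 3 h12 h24
    have h15 : xx 1 5 ∈ P := cx 0 1 4 h12 h25
    refine le_of (by decide) (fun i j _ _ => mem_sup_left (zz_A0 i j)) fun i j hij hR => ?_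
    fin_cases i <;> fin_cases j <;>
      first | exact absurd rfl hij | exact absurd hR (by decide) | assumption
  · rintro n (rfl | rfl | rfl | rfl | rfl | rfl | rfl)
    exacts [xx_mem (i := 0) (j := 1) (by decide) rfl, xx_mem (i := 1) (j := 0) (by decide) rfl,
      xx_mem (i := 1) (j := 2) (by decide) rfl, xx_mem (i := 2) (j := 3) (by decide) rfl,
      xx_mem (i := 3) (j := 2) (by decide) rfl, xx_mem (i := 3) (j := 4) (by decide) rfl,
      xx_mem (i := 4) (j := 3) (by decide) rfl]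

theorem k0 : K0 = A0 ⊔ closure {xx 1 2, xx 2 1, xx 2 3, xx 3 2, xx 3 4, xx 4 5, xx 5 4} := by
  refine le_antisymm ?_ (sup_le (A0_le _) ((closure_le _).2 ?_))
  · set P : Subgroup N0 := A0 ⊔ closure {xx 1 2, xx 2 1, xx 2 3, xx 3 2, xx 3 4, xx 4 5, xx 5 4}
    have h12 : xx 1 2 ∈ P := mem_sup_right (subset_closure (by simp))
    have h21 : xx 2 1 ∈ P := mem_sup_right (subset_closure (by simp))
    have h23 : xx 2 3 ∈ P := mem_sup_right (subset_closure (by simp))
    have h32 : xx 3 2 ∈ P := mem_sup_right (subset_closure (by simp))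
    have h34 : xx 3 4 ∈ P := mem_sup_right (subset_closure (by simp))
    have h45 : xx 4 5 ∈ P := mem_sup_right (subset_closure (by simp))
    have h54 : xx 5 4 ∈ P := mem_sup_right (subset_closure (by simp))
    have h13 : xx 1 3 ∈ P := cx 0 1 2 h12 h23
    have h31 : xx 3 1 ∈ P := cx 2 1 0 h32 h21
    have h35 : xx 3 5 ∈ P := cx 2 3 4 h34 h45
    have h24 : xx 2 4 ∈ P := cx 1 2 3 h23 h34
    have h25 : xx 2 5 ∈ P := cx 1 3 4 h24 h45
    have h14 : xx 1 4 ∈ P := cx 0 1 3 h12 h24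
    have h15 : xx 1 5 ∈ P := cx 0 1 4 h12 h25
    refine le_of (by decide) (fun i j _ _ => mem_sup_left (zz_A0 i j)) fun i j hij hR => ?_
    fin_cases i <;> fin_cases j <;>
      first | exact absurd rfl hij | exact absurd hR (by decide) | assumption
  · rintro n (rfl | rfl | rfl | rfl | rfl | rfl | rfl)
    exacts [xx_mem (i := 0) (j := 1) (by decide) rfl, xx_mem (i := 1) (j := 0) (by decide) rfl,
      xx_mem (i := 1) (j := 2) (by decide) rfl, xx_mem (i := 2) (j := 1) (by decide) rfl,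
      xx_mem (i := 2) (j := 3) (by decide) rfl, xx_mem (i := 3) (j := 4) (by decide) rfl,
      xx_mem (i := 4) (j := 3) (by decide) rfl]

theorem n1 : N1 = A0 ⊔ closure {xx 1 2, xx 2 1, xx 2 3, xx 3 2, xx 3 4, xx 4 3, xx 4 5} := by
  refine le_antisymm ?_ (sup_le (A0_le _) ((closure_le _).2 ?_))
  · set P : Subgroup N0 := A0 ⊔ closure {xx 1 2, xx 2 1, xx 2 3, xx 3 2, xx 3 4, xx 4 3, xx 4 5}
    have h12 : xx 1 2 ∈ P := mem_sup_right (subset_closure (by simp))
    have h21 : xx 2 1 ∈ P := mem_sup_right (subset_closure (by simp))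
    have h23 : xx 2 3 ∈ P := mem_sup_right (subset_closure (by simp))
    have h32 : xx 3 2 ∈ P := mem_sup_right (subset_closure (by simp))
    have h34 : xx 3 4 ∈ P := mem_sup_right (subset_closure (by simp))
    have h43 : xx 4 3 ∈ P := mem_sup_right (subset_closure (by simp))
    have h45 : xx 4 5 ∈ P := mem_sup_right (subset_closure (by simp))
    have h13 : xx 1 3 ∈ P := cx 0 1 2 h12 h23
    have h31 : xx 3 1 ∈ P := cx 2 1 0 h32 h21
    have h24 : xx 2 4 ∈ P := cx 1 2 3 h23 h34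
    have h42 : xx 4 2 ∈ P := cx 3 2 1 h43 h32
    have h14 : xx 1 4 ∈ P := cx 0 1 3 h12 h24
    have h41 : xx 4 1 ∈ P := cx 3 1 0 h42 h21
    have h35 : xx 3 5 ∈ P := cx 2 3 4 h34 h45
    have h25 : xx 2 5 ∈ P := cx 1 2 4 h23 h35
    have h15 : xx 1 5 ∈ P := cx 0 1 4 h12 h25
    refine le_of (by decide) (fun i j _ _ => mem_sup_left (zz_A0 i j)) fun i j hij hR => ?_
    fin_cases i <;> fin_cases j <;>
      first | exact absurd rfl hij | exact absurd hR (by decide) | assumption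
  · rintro n (rfl | rfl | rfl | rfl | rfl | rfl | rfl)
    exacts [xx_mem (i := 0) (j := 1) (by decide) rfl, xx_mem (i := 1) (j := 0) (by decide) rfl,
      xx_mem (i := 1) (j := 2) (by decide) rfl, xx_mem (i := 2) (j := 1) (by decide) rfl,
      xx_mem (i := 2) (j := 3) (by decide) rfl, xx_mem (i := 3) (j := 2) (by decide) rfl,
      xx_mem (i := 3) (j := 4) (by decide) rfl]

theorem top : (⊤ : Subgroup N0) =
    closure {zz 4 5, xx 1 2, xx 2 1, xx 2 3, xx 3 2, xx 3 4, xx 4 3, xx 4 5, xx 5 4} := by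
  refine le_antisymm (le_trans (b := Pat (fun _ _ => true) (fun _ _ => true)) (fun n _ =>
    mem_Pat.2 ⟨fun _ _ k => absurd k (by simp), fun _ _ k => absurd k (by simp)⟩) ?_) le_top
  set P : Subgroup N0 :=
    closure {zz 4 5, xx 1 2, xx 2 1, xx 2 3, xx 3 2, xx 3 4, xx 4 3, xx 4 5, xx 5 4}
  have z45 : zz 4 5 ∈ P := subset_closure (by simp)
  have h12 : xx 1 2 ∈ P := subset_closure (by simp)
  have h21 : xx 2 1 ∈ P := subset_closure (by simp)
  have h23 : xx 2 3 ∈ P := subset_closure (by simp)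
  have h32 : xx 3 2 ∈ P := subset_closure (by simp)
  have h34 : xx 3 4 ∈ P := subset_closure (by simp)
  have h43 : xx 4 3 ∈ P := subset_closure (by simp)
  have h45 : xx 4 5 ∈ P := subset_closure (by simp)
  have h54 : xx 5 4 ∈ P := subset_closure (by simp)
  have h13 : xx 1 3 ∈ P := cx 0 1 2 h12 h23
  have h31 : xx 3 1 ∈ P := cx 2 1 0 h32 h21
  have h24 : xx 2 4 ∈ P := cx 1 2 3 h23 h34
  have h42 : xx 4 2 ∈ P := cx 3 2 1 h43 h32
  have h14 : xx 1 4 ∈ P := cx 0 1 3 h12 h24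
  have h41 : xx 4 1 ∈ P := cx 3 1 0 h42 h21
  have h35 : xx 3 5 ∈ P := cx 2 3 4 h34 h45
  have h25 : xx 2 5 ∈ P := cx 1 2 4 h23 h35
  have h15 : xx 1 5 ∈ P := cx 0 1 4 h12 h25
  have h53 : xx 5 3 ∈ P := cx 4 3 2 h54 h43
  have h52 : xx 5 2 ∈ P := cx 4 2 1 h53 h32
  have h51 : xx 5 1 ∈ P := cx 4 1 0 h52 h21
  have z15 : zz 1 5 ∈ P := cz 0 3 4 h14 z45
  have z25 : zz 2 5 ∈ P := cz 1 3 4 h24 z45
  have z35 : zz 3 5 ∈ P := cz 2 3 4 h34 z45
  have z54 : zz 5 4 ∈ P := zz_symm 4 5 ▸ z45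
  have z14 : zz 1 4 ∈ P := cz 0 4 3 h15 z54
  have z24 : zz 2 4 ∈ P := cz 1 4 3 h25 z54
  have z34 : zz 3 4 ∈ P := cz 2 4 3 h35 z54
  have z43 : zz 4 3 ∈ P := zz_symm 3 4 ▸ z34
  have z13 : zz 1 3 ∈ P := cz 0 3 2 h14 z43
  have z23 : zz 2 3 ∈ P := cz 1 3 2 h24 z43
  have z32 : zz 3 2 ∈ P := zz_symm 2 3 ▸ z23
  have z12 : zz 1 2 ∈ P := cz 0 2 1 h13 z32
  refine le_of (by decide) (fun i j hij _ => ?_) fun i j hij _ => ?_
  · fin_cases i <;> fin_cases j <;> first | exact absurd hij (by decide) | assumption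
  · fin_cases i <;> fin_cases j <;> first | exact absurd rfl hij | assumption

theorem gen : GenStmt := by
  refine ⟨fun S R h hT => pat_eq fun i j hij hR => ?_, la, h0, k0, n1, top⟩
  have h1 := (mem_Pat.1 (hT (xx_mem (S := S) (h := h) hij.ne' hR))).2 i j
    (by simp only [decide_eq_false_iff_not]; omega)
  change (X (i + 1) (j + 1)).1 i j = _ at h1
  rw [X_val hij.ne', Matrix.add_apply, single_apply_same, one_apply_ne hij.ne'] at h1
  exact absurd h1 (by decide)

end Cfsg.Agent.H56.LpGen
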