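import Cfsg.Agent.H81.QTDefs
import Cfsg.Agent.H8.SylowIn
import Cfsg.Agent.H3.Cores
import Cfsg.Agent.H7.PBasic
import Cfsg.Agent.H29.Klein

/-! General facts on the minimal parabolic configuration `MP`. -/

set_option autoImplicit false
open Cfsg Subgroup

namespace Cfsg.Agent.H56.MPO
open H81.QT

variable {X : Type*} [Group X] {K X₀ A : Subgroup X} {T : Sylow 2 X}

lemma sq (h : MP K T X₀ A) {a : X} (ha : a ∈ A) : a * a = 1 := by
  rw [← pow_two]; exact h.ea.2 a ha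

lemma comm (h : MP K T X₀ A) {a b : X} (ha : a ∈ A) (hb : b ∈ A) : a * b = b * a :=
  congrArg Subtype.val (h.ea.1.is_comm.comm (⟨a, ha⟩ : A) ⟨b, hb⟩)

lemma eq_one (h : MP K T X₀ A) {x : X} (hx : ∀ k ∈ K, k * x = x * k) : x = 1 := by
  rw [← mem_bot, ← h.cent]
  exact mem_centralizer_iff.mpr hx

lemma exists_ne (h : MP K T X₀ A) (z : X) : ∃ a ∈ A, a ≠ 1 ∧ a ≠ z := by
  by_contra hc
  push Not at hc
  have h1 : (A : Set X) ⊆ {1, z} := fun a ha => (eq_or_ne a 1).imp id (hc a ha)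
  have h2 := Set.ncard_le_ncard h1
  have h3 := Set.ncard_insert_le (1 : X) {z}
  have h4 := h.card
  rw [Set.ncard_singleton] at h3
  rw [← SetLike.coe_sort_coe, Nat.card_coe_set_eq] at h4
  omega

variable [Finite X]

lemma eq_bot (h : MP K T X₀ A) {C : Subgroup X} (hn : C.Normal) (hC : IsPGroup 2 C) : C = ⊥ := by
  have := h.normal
  have := h.simple
  rcases (inferInstance : (C.subgroupOf K).Normal).eq_bot_or_eq_top with h1 | h1
  · rw [eq_bot_iff]
    intro x hx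
    exact eq_one h fun k hk =>
      ((commute_of_normal_of_disjoint C K hn h.normal (subgroupOf_eq_bot.mp h1) x k hx hk).eq).symm
  · have := (hC.to_le (subgroupOf_eq_top.mp h1)).isNilpotent
    exact absurd ⟨⟨IsSimpleGroup.comm_iff_isSolvable.mpr inferInstance⟩⟩ h.ncomm

lemma syl_le (h : MP K T X₀ A) : (T : Subgroup X) ≤ X₀ := by
  refine h.uniq _ (fun e => ?_) le_rfl
  have h1 : (T : Subgroup X) = ⊥ := eq_bot h (e ▸ inferInstance) T.isPGroup'
  have h2 := h.card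
  rw [le_bot_iff.mp (h.le.trans h1.le), card_bot] at h2
  omega

lemma norm_le (h : MP K T X₀ A) {C : Subgroup X} (h0 : C ≠ ⊥) (hC : IsPGroup 2 C)
    (hT : ∀ t ∈ (T : Subgroup X), ∀ c ∈ C, t * c * t⁻¹ ∈ C) : normalizer (C : Set X) ≤ X₀ :=
  h.uniq _ (fun e => h0 (eq_bot h (normalizer_eq_top_iff.mp e) hC)) fun t ht =>
    mem_normalizer_fintype (hT t ht)

lemma conj_mem (h : MP K T X₀ A) {x a : X} (hx : x ∈ X₀) (ha : a ∈ A) : x * a * x⁻¹ ∈ A :=
  (mem_normalizer_iff.mp (h.norm hx) a).mp ha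

lemma cent_le (h : MP K T X₀ A) {z : X} (h1 : z ≠ 1)
    (hT : ∀ t ∈ (T : Subgroup X), t * z = z * t) {x : X} (hx : x * z = z * x) : x ∈ X₀ := by
  refine h.uniq (centralizer {z}) (fun e => h1 (eq_one h fun k _ => ?_))
    (fun t ht => mem_centralizer_singleton_iff.mpr (hT t ht)) (mem_centralizer_singleton_iff.mpr hx)
  exact mem_centralizer_singleton_iff.mp (e ▸ mem_top k)

lemma isPGroup_of_sq {C : Subgroup X} (h : ∀ c ∈ C, c * c = 1) : IsPGroup 2 C := fun c =>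
  ⟨1, Subtype.ext (by simpa [pow_two] using h c c.2)⟩

lemma exists_central {C : Subgroup X} (h0 : C ≠ ⊥) (hC : C ≤ T)
    (hT : ∀ t ∈ (T : Subgroup X), ∀ c ∈ C, t * c * t⁻¹ ∈ C) :
    ∃ z ∈ C, z ≠ 1 ∧ z * z = 1 ∧ ∀ t ∈ (T : Subgroup X), t * z = z * t := by
  have : (C.subgroupOf T).Normal := ⟨fun c hc t => hT t t.2 c hc⟩
  obtain ⟨z, h1, h2, h3⟩ := H7.exists_mem_center_orderOf T.isPGroup' (M := C.subgroupOf T)
    fun e => h0 ((subgroupOf_eq_bot.mp e).eq_bot_of_le hC)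
  refine ⟨z, h1, fun e => ?_, ?_, fun t ht => congrArg Subtype.val (mem_center_iff.mp h2 ⟨t, ht⟩)⟩
  · rw [show z = 1 from Subtype.ext e] at h3
    simp at h3
  · have := pow_orderOf_eq_one z
    rw [h3, pow_two] at this
    exact congrArg Subtype.val this

lemma exists_conj (h : MP K T X₀ A) {Q : Subgroup X} (hQ : IsPGroup 2 Q) (hK : Q ≤ K) :
    ∃ g : X, ∀ x ∈ Q, g * x * g⁻¹ ∈ (T : Subgroup X) ⊓ K := by
  have := h.normal
  obtain ⟨g, -, hg⟩ := (H8.isSylowIn_inf_normal T K).exists_conj_le hQ hK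
  exact ⟨g, fun x hx => hg (H8.conj_mem_conj_smul.mpr hx)⟩

lemma exists_z (h : MP K T X₀ A) {k : X} (hk : k ∈ K) (h1 : k ≠ 1) (h2 : k * k = 1) :
    ∃ z ∈ K, z ∈ (T : Subgroup X) ∧ z ≠ 1 ∧ z * z = 1 ∧ ∀ t ∈ (T : Subgroup X), t * z = z * t := by
  obtain ⟨g, hg⟩ := exists_conj h (Q := zpowers k) (isPGroup_of_sq (by
    rintro _ ⟨n, rfl⟩
    rw [← (Commute.refl k).mul_zpow, h2, one_zpow])) (zpowers_le.mpr hk)
  obtain ⟨z, hz, h3⟩ := exists_central (T := T) (C := T ⊓ K) (fun e => h1 (by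
    simpa [e] using hg k (mem_zpowers k))) inf_le_left fun t ht c hc =>
      mem_inf.mpr ⟨mul_mem (mul_mem ht (mem_inf.mp hc).1) (inv_mem ht), h.normal.conj_mem c hc.2 t⟩
  exact ⟨z, hz.2, hz.1, h3⟩

lemma conc_syl (h : MP K T X₀ A) (h0 : (T : Subgroup X) ⊓ K ≠ ⊥) (hA : (T : Subgroup X) ⊓ K ≤ A) :
    MPConc K X₀ A := by
  have := h.normal
  refine Or.inl ⟨⊤, le_top, fun h1 => ?_, fun S hS h1 _ s hs => ?_⟩
  · rw [pCoreTwoOf, eq_bot h (H3.map_pCore_normal ⊤) (H3.map_pCore_isPGroup ⊤)] at h1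
    exact h0 (le_bot_iff.mp (hA.trans h1))
  · have e := (H8.isSylowIn_inf_normal T K).eq_of_le (hS.to_inf_left (K := K)) inf_le_right
      (le_inf (hA.trans h1) inf_le_right)
    refine norm_le h h0 (T.isPGroup'.to_inf_left) (fun t ht c hc =>
      mem_inf.mpr ⟨mul_mem (mul_mem ht (mem_inf.mp hc).1) (inv_mem ht), h.normal.conj_mem c hc.2 t⟩) ?_
    rw [← e]
    exact mem_normalizer_fintype fun c hc =>
      mem_inf.mpr ⟨mul_mem (mul_mem hs (mem_inf.mp hc).1) (inv_mem hs), h.normal.conj_mem c hc.2 s⟩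

lemma conc_odd (h : MP K T X₀ A) {y : X} (hy : y ^ 3 = 1)
    (hA : ∀ a ∈ A, a * y * a⁻¹ = y ∨ a * y * a⁻¹ = y⁻¹) {a : X} (ha : a ∈ A)
    (hne : a * y * a⁻¹ ≠ y) : MPConc K X₀ A := by
  have hn : A ≤ normalizer (zpowers y : Set X) := fun b hb => mem_normalizer_fintype (by
    rintro _ ⟨n, rfl⟩
    rw [← conj_zpow]
    rcases hA b hb with e | e <;> rw [e]
    exacts [zpow_mem (mem_zpowers y) n, zpow_mem (inv_mem (mem_zpowers y)) n])
  have triv : ∀ S : Subgroup X, IsPGroup 2 S → ∀ d ∈ zpowers y, d ∈ S → d = 1 := by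
    intro S hS d hd hdS
    have := H3.inf_eq_bot_of_isPGroup_of_coprime hS (Q := zpowers y) (by
      rw [Nat.card_zpowers]
      exact Nat.Coprime.coprime_dvd_left (orderOf_dvd_of_pow_eq_one hy) (by norm_num))
    exact mem_bot.mp (this ▸ ⟨hdS, hd⟩)
  refine Or.inl ⟨A ⊔ zpowers y, le_sup_left, fun h1 => hne ?_, fun S hS h1 h2 s hs => ?_⟩
  · obtain ⟨a', h2, rfl⟩ := h1 ha
    have hy' : y ∈ A ⊔ zpowers y := mem_sup_right (mem_zpowers y)
    have h3 : (a' : X) * y * (a' : X)⁻¹ * y⁻¹ ∈ pCoreTwoOf (A ⊔ zpowers y) :=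
      ⟨a' * (⟨y, hy'⟩ * a'⁻¹ * (⟨y, hy'⟩ : ↥(A ⊔ zpowers y))⁻¹), mul_mem h2
        ((inferInstance : (pCore 2 _).Normal).conj_mem _ (inv_mem h2) _), by simp [mul_assoc]⟩
    exact mul_inv_eq_one.mp (triv _ (H3.map_pCore_isPGroup _) _ (mul_mem
      ((mem_normalizer_iff.mp (hn ha) y).mp (mem_zpowers y)) (inv_mem (mem_zpowers y))) h3)
  · have h3 : s ∈ ((A ⊔ zpowers y : Subgroup X) : Set X) := h2 hs
    rw [coe_mul_of_left_le_normalizer_right _ _ hn] at h3
    obtain ⟨b, hb, d, hd, rfl⟩ := h3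
    rw [triv S hS d hd ((S.mul_mem_cancel_left (h1 hb)).mp hs)]
    simpa using syl_le h (h.le hb)

/-- if four-groups of `K` are maximal elementary abelian, `A` centralizes the odd elements of
`C_K(z)` -/
lemma comm_odd (h : MP K T X₀ A) {z : X} (h1 : z ≠ 1)
    (hT : ∀ t ∈ (T : Subgroup X), t * z = z * t)
    (rk : ∀ b ∈ K, ∀ c ∈ K, b * b = 1 → c * c = 1 → b * z = z * b → c * z = z * c →
      b * c = c * b → b ≠ 1 → c ≠ 1 → b ≠ z → c ≠ z → b ≠ c → c = z * b)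
    {l : X} (hl : l ∈ K) (hz : l * z = z * l) {n : ℕ} (hn : l ^ (2 * n + 1) = 1) {a : X}
    (ha : a ∈ A) : a * l * a⁻¹ = l := by
  have hl0 := cent_le h h1 hT hz
  have hb := mul_mem ha (conj_mem h hl0 ha)
  have hbK : a * (l * a * l⁻¹) ∈ K := by
    have := mul_mem (h.normal.conj_mem l hl a) (inv_mem hl)
    rwa [inv_eq_of_mul_eq_one_right (sq h ha), mul_assoc, mul_assoc, ← mul_assoc l] at this
  have e : l * a * l⁻¹ = a * (a * (l * a * l⁻¹)) := by rw [← mul_assoc a a, sq h ha, one_mul]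
  generalize a * (l * a * l⁻¹) = b at hb hbK e
  have odd : ∀ x : X, Commute (l * l) x → Commute l x := fun x hx => by
    have := (hx.pow_left n).inv_left
    rwa [← pow_two, ← pow_mul, inv_eq_of_mul_eq_one_right (pow_succ l _ ▸ hn)] at this
  have hc : Commute l b := by
    by_contra hc
    have hb' := conj_mem h hl0 hb
    have b1 : b ≠ 1 := by rintro rfl; exact hc (Commute.one_right l)
    have bz : b ≠ z := by rintro rfl; exact hc hz
    have e1 := rk b hbK _ (h.normal.conj_mem b hbK l) (sq h hb) (sq h hb') (hT b (h.le hb))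
      (hT _ (h.le hb')) (comm h hb hb') b1 (by simpa using b1) bz
      (fun e => bz (by rw [mul_inv_eq_iff_eq_mul, ← hz] at e; exact mul_left_cancel e))
      fun e => hc (mul_inv_eq_iff_eq_mul.mp e.symm)
    have e2 := sq h hb'
    rw [e1, mul_assoc, ← mul_assoc b, hT b (h.le hb), mul_assoc, sq h hb, mul_one] at e2
    refine hc (odd b (mul_inv_eq_iff_eq_mul.mp ?_))
    calc l * l * b * (l * l)⁻¹ = l * (l * b * l⁻¹) * l⁻¹ := by group
      _ = (l * z) * l⁻¹ * (l * b * l⁻¹) := by conv_lhs => rw [e1]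
                                              group
      _ = b := by rw [hz, mul_inv_cancel_right, e1, ← mul_assoc, e2, one_mul]
  have : Commute l a := odd a (mul_inv_eq_iff_eq_mul.mp (by
    calc l * l * a * (l * l)⁻¹ = l * (l * a * l⁻¹) * l⁻¹ := by group
      _ = (l * a * l⁻¹) * (l * b * l⁻¹) := by conv_lhs => rw [e]
                                              group
      _ = a := by rw [e, hc.eq, mul_inv_cancel_right, mul_assoc, sq h hb, mul_one]))
  rw [← this.eq, mul_inv_cancel_right]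

end Cfsg.Agent.H56.MPO
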