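import Cfsg.Agent.H35.RfQ

/-! Project RF, piece QD2: the complement `Q / W` from a complement to `V`. -/

set_option autoImplicit false

namespace Cfsg.Agent.H56.RfQd2

open Cfsg Subgroup Cfsg.Agent.H18.Rf Cfsg.Agent.H35.RF
open Cfsg.Agent.H18.MaxOff (mem_sup_prod mem_norm_of_le)
open scoped commutatorElement

universe u

theorem qd2 : Qd2Stmt.{u} := by
  intro G _ _ V z W R K P va hKV hP hPN hRP
  have hKN : K ≤ NN V := (hP ▸ le_sup_left : K ≤ P).trans hPN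
  have hYN : K ⊓ R ≤ NN W := inf_le_right.trans (va.RM.trans va.nW)
  have h1 : ∀ k ∈ K, k ∈ V → k = 1 := fun k hk hv => mem_bot.1 (hKV ▸ ⟨hk, hv⟩)
  have hdec : ∀ p ∈ P, ∃ k ∈ K, ∃ v ∈ V, p = k * v := fun p hp =>
    mem_sup_prod hKN (hP.symm ▸ hp)
  have hR : ∀ r ∈ R, ∃ k ∈ K ⊓ R, ∃ v ∈ V, r = k * v := fun r hr => by
    obtain ⟨k, hk, v, hv, e⟩ := hdec r (hRP hr)
    exact ⟨k, ⟨hk, (mul_mem_cancel_right (va.VR hv)).1 (e ▸ hr)⟩, v, hv, e⟩
  have hsq : ∀ k ∈ K ⊓ R, ∀ v ∈ V, k * v * (k * v) = ⁅k, v⁆ := fun k hk v hv => by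
    have e1 := h1 _ (mul_mem hk.1 hk.1) (va.sqR k hk.2)
    rw [commutatorElement_def, inv_eq_of_mul_eq_one_right e1,
      inv_eq_of_mul_eq_one_right (va.el v hv)]
    simp only [mul_assoc]
  refine ⟨(K ⊓ R) ⊔ W, le_antisymm ?_ (le_inf le_sup_right va.WV), le_antisymm
    (sup_le (sup_le inf_le_right (va.WV.trans va.VR)) va.VR) fun r hr => ?_, fun q hq => ?_,
    fun r hr => ?_, fun m hm => ?_⟩
  · rintro p ⟨hp, hv⟩
    obtain ⟨k, hk, w, hw, rfl⟩ := mem_sup_prod hYN hp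
    rw [h1 k hk.1 ((mul_mem_cancel_right (va.WV hw)).1 hv), one_mul]
    exact hw
  · obtain ⟨k, hk, v, hv, rfl⟩ := hR r hr
    exact mul_mem (mem_sup_left (mem_sup_left hk)) (mem_sup_right hv)
  · obtain ⟨k, hk, w, hw, rfl⟩ := mem_sup_prod hYN hq
    rw [hsq k hk w (va.WV hw)]
    exact va.RW k hk.2 w hw
  · obtain ⟨k, hk, v, hv, rfl⟩ := hR r hr
    rw [hsq k hk v hv]
    exact va.RV k hk.2 v hv
  · obtain ⟨k', hk', v, hv, rfl⟩ := hdec m hm.2
    have hvM : v ∈ MM V z := va.RM (va.VR hv)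
    have hkM : k' ∈ MM V z := (mul_mem_cancel_right hvM).1 hm.1
    refine mul_mem (mem_norm_of_le fun a ha => ?_) (mem_norm_of_le fun a ha => ?_)
    · obtain ⟨k, hk, w, hw, rfl⟩ := mem_sup_prod hYN ha
      have e : k' * (k * w) * k'⁻¹ = (k' * k * k'⁻¹) * (k' * w * k'⁻¹) := by group
      rw [e]
      exact mul_mem (mem_sup_left ⟨K.mul_mem (K.mul_mem hk' hk.1) (K.inv_mem hk'),
        (mem_normalizer_iff.1 (va.nR hkM) k).1 hk.2⟩)
        (mem_sup_right ((mem_normalizer_iff.1 (va.nW hkM) w).1 hw))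
    · obtain ⟨k, hk, w, hw, rfl⟩ := mem_sup_prod hYN ha
      have e : v * (k * w) * v⁻¹ = k * (⁅k⁻¹, v⁆ * (v * w * v⁻¹)) := by
        rw [commutatorElement_def]
        group
      rw [e]
      exact mul_mem (mem_sup_left hk) (mem_sup_right (mul_mem (va.RV _ (inv_mem hk.2) v hv)
        ((mem_normalizer_iff.1 (va.nW hvM) w).1 hw)))

end Cfsg.Agent.H56.RfQd2
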