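import Cfsg.Agent.H18.RfSc

/-! Project RF, chapter XST: the parabolic case does not occur for the cocode module. -/

set_option autoImplicit false

namespace Cfsg.Agent.H56.RfXst

open Cfsg Subgroup Cfsg.Agent.H18.MaxOff Cfsg.Agent.H18.Rf
open Cfsg.Agent.H49 (XS LX)

universe u

theorem arith {c r : ℕ} (h : 4 * 2 ^ 13 = c * r ^ 2) (h1 : 2 * 2 ^ 13 ≤ c ^ 2) (h2 : c ≤ 2 ^ 9) :
    (r = 8 ∧ c = 2 ^ 9) ∨ (r = 16 ∧ c = 2 ^ 7) := by
  have h3 : 128 ≤ c := by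
    by_contra k
    have : c ^ 2 ≤ 127 ^ 2 := Nat.pow_le_pow_left (by omega) 2
    omega
  have h4 : r ≤ 16 := by
    by_contra k
    have := Nat.mul_le_mul h3 (Nat.pow_le_pow_left (show 17 ≤ r by omega) 2)
    omega
  interval_cases r <;> omega

theorem xst (hT : TkStmt.{u}) (hH : XsHStmt.{u}) : XsTStmt.{u} := by
  intro G _ _ V z Q Q' W X Y ω lc lt cfg rad hYM
  have xs := cfg.xs
  have hYQ' : Y ≤ Q' := cfg.hY ▸ inf_le_left
  have hYN : Y ≤ NN Q := cfg.hY ▸ inf_le_right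
  have hyy : ∀ y ∈ Y, y * y ∈ Q := fun y hy => xs.Z_le (cfg.xs'.sq_mem (hYQ' hy))
  have hzY : z ∈ Y := cfg.hY ▸ ⟨cfg.xs'.mem, le_normalizer xs.mem⟩
  have hzD : z ∈ Q ⊓ Y := ⟨xs.mem, hzY⟩
  have hzR : z ∈ RR Q Y := ⟨hzD, fun x hx => xs.cen x hx.1⟩
  have hH' := fun y (hy : y ∈ Y) => hH G Q z y xs (hYN hy) (hYM hy).2 (hyy y hy)
  have key : ∀ y ∈ Y, y ∉ Q →
      (Nat.card (RR Q Y) = 8 ∧ Nat.card ↥(Q ⊓ CM {y} (zpowers z)) = 2 ^ 9) ∨
      (Nat.card (RR Q Y) = 16 ∧ Nat.card ↥(Q ⊓ CM {y} (zpowers z)) = 2 ^ 7) := fun y hy hyQ => by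
    have h1 := rad.rk y hy hyQ
    have h2 := (hH' y hy).1
    rw [lt.cQ] at h1 h2
    exact arith h1 h2 (lt.r4 y (hYM hy) hyQ (hyy y hy))
  obtain ⟨y0, hy0, hy0Q⟩ := SetLike.not_le_iff_exists.1 cfg.ny
  rcases key y0 hy0 hy0Q with ⟨hr, -⟩ | ⟨hr, hc⟩
  · obtain ⟨ta, tb, -, td⟩ := hT G Q z ω xs (lc.mq lt.om) lt.om.2 lt.o3 lt.fp
    obtain ⟨u, hu, huu⟩ : ∃ u ∈ Q ⊓ CC (Q ⊓ Y), u * u ≠ 1 := by
      by_contra k
      push Not at k
      apply rad.nd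
      intro u hu
      refine ⟨?_, hu.2⟩
      rw [← xs.centralizer_centralizer (U := Q ⊓ Y) inf_le_left hzD]
      exact ⟨hu.1, fun v hv => comm_of_sq k hv hu⟩
    obtain ⟨t, ht, htX⟩ := SetLike.not_le_iff_exists.1 cfg.nx
    obtain ⟨y, hy, hr'⟩ := rad.on t ht htX u hu
    set x := t * y * t⁻¹ * y⁻¹ with hx
    have hxx : x * x ≠ 1 := fun k => huu (by
      have h1 := rad.re _ hr'
      have h2 : x⁻¹ * u * u = u * (x⁻¹ * u) := hu.2 _ hr'.1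
      have h3 : x⁻¹ * u = u * x⁻¹ := mul_right_cancel (h2.trans (mul_assoc _ _ _).symm)
      have h4 : x⁻¹ * x⁻¹ = 1 := by rw [← mul_inv_rev, k, inv_one]
      calc u * u = u * (x⁻¹ * x⁻¹) * u := by rw [h4, mul_one]
        _ = (u * x⁻¹) * (x⁻¹ * u) := by simp only [mul_assoc]
        _ = 1 := by rw [← h3, h1])
    have hyQ : y ∉ Q := fun k => hxx (by
      rcases xs.mem_Z.1 (xs.commutator_mem ht k) with e | e
      · rw [hx, e, mul_one]
      · rw [hx, e, xs.zz])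
    have hc : Nat.card ↥(Q ⊓ CM {y} (zpowers z)) = 2 ^ 9 := by
      rcases key y hy hyQ with ⟨-, e⟩ | ⟨e, -⟩
      · exact e
      · omega
    rcases lt.sl y (hYM hy) with e | e
    · have h1 := (tb y (hYN hy) (hYM hy).2 e).1
      have h2 := (hH' y hy).2.1 t ht
      have h3 := (mem_normalizer_iff.1 h1 _).1 h2.1
      exact hxx (td x h2.1.1 (h2.2 _ h3).symm)
    · have := ta y (hYN hy) (hYM hy).2 e
      rw [hc, lt.cQ] at this
      omega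
  · have h1 := (hH' y0 hy0).2.2 (by rw [hc, lt.cQ]; norm_num)
    have h2 : Q ⊓ Y ≤ Q ⊓ CM {y0} (zpowers z) := by
      rw [← rad.dc]
      rintro a ⟨ha, ha1, ha2⟩
      exact ⟨ha, ha1, fun x hx => ha2 x (by rw [Set.mem_singleton_iff.1 hx]; exact hy0)⟩
    have h3 : RR Q Y = Q ⊓ Y := inf_eq_left.2 fun a ha b hb => h1 (h2 ha) b (h2 hb)
    have h4 := xs.card_mul_card_centralizer_of_mem (U := RR Q Y) (inf_le_left.trans inf_le_left) hzR
    rw [← rad.xr, hr, cfg.card, lt.cQ] at h4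
    have h5 := H49.XS.card_mul_relIndex' Q Y
    rw [inf_comm, ← h3, hr] at h5
    have h6 := H49.XS.card_mul_relIndex' Q (Y ⊔ Q)
    rw [inf_eq_right.2 le_sup_right, lt.cQ] at h6
    have h7 := lt.r5 (Y ⊔ Q) le_sup_right (sup_le hYM lc.qm) fun p hp => by
      obtain ⟨y, hy, a, ha, rfl⟩ := mem_sup_prod hYN hp
      have := mul_mem (mul_mem (hyy y hy) ((mem_normalizer_iff''.1 (hYN hy) _).1 ha)) ha
      simpa only [mul_assoc, mul_inv_cancel_left] using this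
    have h8 : Q.relIndex Y ≤ Q.relIndex (Y ⊔ Q) :=
      relIndex_le_of_le_right le_sup_left (Subgroup.index_ne_zero_of_finite)
    omega

end Cfsg.Agent.H56.RfXst
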