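import Mathlib
import Cfsg.Agent.H85.Basic

/-!
A class of elementary abelian TI 2-subgroups, each the centre of a class two group:
pairs of conjugates inside such a group.
-/

set_option autoImplicit false

namespace Cfsg.Agent.H56

open Subgroup H85
open scoped commutatorElement

variable {G : Type*} [Group G]

/-- a conjugation invariant TI family of elementary abelian `2`-groups of equal order -/
structure TICls (𝒱 : Set (Subgroup G)) : Prop where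
  conj : ∀ U ∈ 𝒱, ∀ x, cj x U ∈ 𝒱
  ti : ∀ U ∈ 𝒱, ∀ U' ∈ 𝒱, ∀ u, u ≠ 1 → u ∈ U → u ∈ U' → U = U'
  sq : ∀ U ∈ 𝒱, ∀ u ∈ U, u * u = 1
  card : ∀ U ∈ 𝒱, ∀ U' ∈ 𝒱, Nat.card U = Nat.card U'
  ne : ∀ U ∈ 𝒱, U ≠ ⊥

/-- the local data at a member `U` of the family -/
structure TILoc (U P : Subgroup G) : Prop where
  le : U ≤ P
  cent : ∀ x ∈ P, ∀ u ∈ U, x * u = u * x
  comm : ∀ x ∈ P, ∀ y ∈ P, ⁅x, y⁆ ∈ U
  sq : ∀ x ∈ P, x * x ∈ U
  ctr : ∀ x ∈ P, (∀ y ∈ P, x * y = y * x) → x ∈ U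
  J : ∀ j, (∀ u ∈ U, j * u = u * j) → (∀ x ∈ P, ⁅x, j⁆ ∈ U) → j ∈ P
  norm : ∀ m, cj m U = U → ∀ x ∈ P, m * x * m⁻¹ ∈ P

theorem comm_of_sq {U : Subgroup G} (h : ∀ u ∈ U, u * u = 1) {a b : G} (ha : a ∈ U) (hb : b ∈ U) :
    a * b = b * a := by
  have h1 := h _ (U.mul_mem ha hb)
  have h2 : a⁻¹ = a := inv_eq_of_mul_eq_one_right (h a ha)
  have h3 : b⁻¹ = b := inv_eq_of_mul_eq_one_right (h b hb)
  have h4 : (a * b)⁻¹ = a * b := inv_eq_of_mul_eq_one_right h1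
  rw [← h4, mul_inv_rev, h2, h3]

theorem cj_eq_of_forall_comm {U : Subgroup G} {x : G} (h : ∀ u ∈ U, x * u = u * x) : cj x U = U := by
  ext u
  rw [mem_cj]
  constructor
  · intro hu
    have := h _ hu
    have e : u = x⁻¹ * u * x := by
      calc u = x * (x⁻¹ * u * x) * x⁻¹ := by group
        _ = x⁻¹ * u * x := by rw [this]; group
    rw [e]; exact hu
  · intro hu
    have : x⁻¹ * u * x = u := by rw [mul_assoc, ← h u hu]; group
    rw [this]; exact hu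

theorem conj_mem_of_cj_eq {U : Subgroup G} {x u : G} (h : cj x U = U) (hu : u ∈ U) :
    x * u * x⁻¹ ∈ U := h ▸ conj_mem_cj hu

theorem cj_inv_eq_of_cj_eq {U : Subgroup G} {x : G} (h : cj x U = U) : cj x⁻¹ U = U := by
  conv_lhs => rw [← h]
  exact cj_inv_cj x U

namespace TICls
variable {𝒱 : Set (Subgroup G)} (h : TICls 𝒱)
include h

theorem comm {U : Subgroup G} (hU : U ∈ 𝒱) {a b : G} (ha : a ∈ U) (hb : b ∈ U) : a * b = b * a :=
  comm_of_sq (h.sq U hU) ha hb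

theorem inv {U : Subgroup G} (hU : U ∈ 𝒱) {a : G} (ha : a ∈ U) : a⁻¹ = a :=
  inv_eq_of_mul_eq_one_right (h.sq U hU a ha)

theorem exists_ne_one {U : Subgroup G} (hU : U ∈ 𝒱) : ∃ u ∈ U, u ≠ 1 := by
  obtain ⟨u, hu⟩ := (ne_bot_iff_exists_ne_one).1 (h.ne U hU)
  exact ⟨u, u.2, fun e => hu (Subtype.ext e)⟩

theorem eq_one {U U' : Subgroup G} (hU : U ∈ 𝒱) (hU' : U' ∈ 𝒱) (hne : U ≠ U') {u : G}
    (hu : u ∈ U) (hu' : u ∈ U') : u = 1 := by
  by_contra h1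
  exact hne (h.ti U hU U' hU' u h1 hu hu')

/-- an element mapping a non-trivial element of `U` into `U'` maps `U` to `U'` -/
theorem cj_eq {U U' : Subgroup G} (hU : U ∈ 𝒱) (hU' : U' ∈ 𝒱) {x u : G} (hu : u ∈ U) (h1 : u ≠ 1)
    (hx : x * u * x⁻¹ ∈ U') : cj x U = U' :=
  h.ti _ (h.conj U hU x) _ hU' _ (by simpa using h1) (conj_mem_cj hu) hx

theorem cj_eq_of_comm {U : Subgroup G} (hU : U ∈ 𝒱) {x u : G} (hu : u ∈ U) (h1 : u ≠ 1)
    (hx : x * u = u * x) : cj x U = U :=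
  h.cj_eq hU hU hu h1 (by rw [hx, mul_inv_cancel_right]; exact hu)

/-- a member normalizing another one centralizes it -/
theorem comm_of_norm [Finite G] {A B : Subgroup G} (hA : A ∈ 𝒱) (hB : B ∈ 𝒱)
    (hn : ∀ b ∈ B, cj b A = A) : ∀ a ∈ A, ∀ b ∈ B, a * b = b * a := by
  by_cases hAB : A = B
  · subst hAB; exact fun a ha b hb => h.comm hA ha hb
  -- an element of `A` centralizing a nontrivial element of `B` centralizes `B`
  have key : ∀ a ∈ A, ∀ b ∈ B, b ≠ 1 → a * b = b * a → ∀ b' ∈ B, a * b' = b' * a := by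
    intro a ha b hb h1 hab b' hb'
    have h2 := h.cj_eq_of_comm hB hb h1 hab
    have h3 : a * b' * a⁻¹ * b'⁻¹ ∈ B := B.mul_mem (conj_mem_of_cj_eq h2 hb') (B.inv_mem hb')
    have h4 : a * b' * a⁻¹ * b'⁻¹ ∈ A := by
      have := A.mul_mem ha (conj_mem_of_cj_eq (hn b' hb') (A.inv_mem ha))
      simpa only [mul_assoc] using this
    have h5 := h.eq_one hA hB hAB h4 h3
    rw [mul_inv_eq_one, mul_inv_eq_iff_eq_mul] at h5
    exact h5
  by_contra hc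
  push Not at hc
  obtain ⟨a, ha, b₀, hb₀, hab⟩ := hc
  let A₀ : Subgroup G := A ⊓ centralizer (B : Set G)
  have hmem : ∀ b ∈ B, a * (b * a * b⁻¹) ∈ A₀ := by
    intro b hb
    have h1 : b * a * b⁻¹ ∈ A := conj_mem_of_cj_eq (hn b hb) ha
    refine ⟨A.mul_mem ha h1, ?_⟩
    by_cases hb1 : b = 1
    · subst hb1
      simp only [one_mul, inv_one, mul_one, h.sq A hA a ha]
      exact one_mem _
    intro b' hb'
    refine (key _ (A.mul_mem ha h1) b hb hb1 ?_ b' hb').symm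
    have e1 := h.comm hA ha h1
    have e2 := h.inv hB hb
    have e3 := h.sq B hB b hb
    rw [e2] at e1 ⊢
    calc a * (b * a * b) * b = a * b * a * (b * b) := by group
      _ = (b * b) * a * b * a := by rw [e3]; group
      _ = b * (b * a * b * a) := by group
      _ = b * (a * (b * a * b)) := by rw [e1]
  let f : B → A₀ := fun b => ⟨a * (b * a * (b : G)⁻¹), hmem b b.2⟩
  have hf : Function.Injective f := by
    intro b b' e
    have e1 : (b : G) * a * (b : G)⁻¹ = b' * a * (b' : G)⁻¹ :=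
      mul_left_cancel (congrArg Subtype.val e)
    by_contra hne
    have h1 : (b' : G)⁻¹ * b ≠ 1 := fun e => hne (Subtype.ext (inv_mul_eq_one.1 e).symm)
    refine hab (key a ha _ (B.mul_mem (B.inv_mem b'.2) b.2) h1 ?_ b₀ hb₀)
    calc a * ((b' : G)⁻¹ * b) = (b' : G)⁻¹ * (b' * a * (b' : G)⁻¹) * b := by group
      _ = (b' : G)⁻¹ * (b * a * (b : G)⁻¹) * b := by rw [e1]
      _ = (b' : G)⁻¹ * b * a := by group
  have h1 := Nat.card_le_card_of_injective f hf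
  have h2 : A₀ = A := eq_of_le_of_card_ge inf_le_left (by rw [h.card A hA B hB]; exact h1)
  have h3 : a ∈ A₀ := h2.symm ▸ ha
  exact hab (h3.2 b₀ hb₀).symm

end TICls

namespace TILoc
variable {U P : Subgroup G} (l : TILoc U P)
include l

theorem cj (g : G) : TILoc (cj g U) (cj g P) where
  le := cj_mono g l.le
  cent := by
    rintro _ ⟨x, hx, rfl⟩ _ ⟨u, hu, rfl⟩
    rw [← map_mul, l.cent x hx u hu, map_mul]
  comm := by
    rintro _ ⟨x, hx, rfl⟩ _ ⟨y, hy, rfl⟩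
    rw [← map_commutatorElement]
    exact ⟨_, l.comm x hx y hy, rfl⟩
  sq := by
    rintro _ ⟨x, hx, rfl⟩
    rw [← map_mul]
    exact ⟨_, l.sq x hx, rfl⟩
  ctr := by
    rintro _ ⟨x, hx, rfl⟩ h
    refine ⟨x, l.ctr x hx fun y hy => ?_, rfl⟩
    have := h _ ⟨y, hy, rfl⟩
    rw [← map_mul, ← map_mul] at this
    exact (MulAut.conj g).injective this
  J := by
    intro j h1 h2
    rw [mem_cj]
    refine l.J _ (fun u hu => ?_) (fun x hx => ?_)
    · have := h1 _ (conj_mem_cj (g := g) hu)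
      calc g⁻¹ * j * g * u = g⁻¹ * (j * (g * u * g⁻¹)) * g := by group
        _ = g⁻¹ * ((g * u * g⁻¹) * j) * g := by rw [this]
        _ = u * (g⁻¹ * j * g) := by group
    · have := mem_cj.1 (h2 _ (conj_mem_cj (g := g) hx))
      convert this using 1
      simp only [commutatorElement_def]; group
  norm := by
    intro m hm x hx
    rw [mem_cj] at hx ⊢
    have h1 : H85.cj (g⁻¹ * m * g) U = U := by
      rw [cj_mul, cj_mul, hm, cj_inv_cj]
    have := l.norm _ h1 _ hx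
    convert this using 1
    group

theorem cj_eq_self {m : G} (hm : H85.cj m U = U) : H85.cj m P = P := by
  apply le_antisymm
  · rintro _ ⟨x, hx, rfl⟩
    exact l.norm m hm x hx
  · intro x hx
    rw [mem_cj]
    simpa using l.norm m⁻¹ (cj_inv_eq_of_cj_eq hm) x hx

theorem comm_mul_right {x y z : G} (hx : x ∈ P) (hy : y ∈ P) (hz : z ∈ P) :
    ⁅x, y * z⁆ = ⁅x, y⁆ * ⁅x, z⁆ := by
  have := l.cent y hy _ (l.comm x hx z hz)
  calc ⁅x, y * z⁆ = ⁅x, y⁆ * (y * ⁅x, z⁆) * y⁻¹ := by simp only [commutatorElement_def]; group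
    _ = ⁅x, y⁆ * ⁅x, z⁆ := by rw [this]; group

theorem comm_mul_left {x y z : G} (hx : x ∈ P) (hy : y ∈ P) (hz : z ∈ P) :
    ⁅x * y, z⁆ = ⁅x, z⁆ * ⁅y, z⁆ := by
  have h1 := l.cent x hx _ (l.comm y hy z hz)
  have h2 := l.cent _ (l.le (l.comm x hx z hz)) _ (l.comm y hy z hz)
  calc ⁅x * y, z⁆ = (x * ⁅y, z⁆) * x⁻¹ * ⁅x, z⁆ := by simp only [commutatorElement_def]; group
    _ = ⁅y, z⁆ * ⁅x, z⁆ := by rw [h1]; group
    _ = _ := h2.symm

theorem comm_inv_left {x z : G} (hx : x ∈ P) (hz : z ∈ P) : ⁅x⁻¹, z⁆ = ⁅x, z⁆⁻¹ := by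
  rw [eq_inv_iff_mul_eq_one, ← l.comm_mul_left (P.inv_mem hx) hx hz, inv_mul_cancel,
    commutatorElement_one_left]

theorem comm_inv_right {x z : G} (hx : x ∈ P) (hz : z ∈ P) : ⁅x, z⁻¹⁆ = ⁅x, z⁆⁻¹ := by
  rw [eq_inv_iff_mul_eq_one, ← l.comm_mul_right hx (P.inv_mem hz) hz, inv_mul_cancel,
    commutatorElement_one_right]

theorem cj_self {x : G} (hx : x ∈ P) : H85.cj x U = U := cj_eq_of_forall_comm (l.cent x hx)

variable {𝒱 : Set (Subgroup G)} (h : TICls 𝒱) (hU : U ∈ 𝒱)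
include h hU

/-- an element of `P` normalizing `B` centralizes it -/
theorem cen_of_norm {B : Subgroup G} (hB : B ∈ 𝒱) (hBP : B ≤ P) (hne : B ≠ U) {y : G} (hy : y ∈ P)
    (hn : H85.cj y B = B) : ∀ b ∈ B, y * b = b * y := by
  intro b hb
  rw [← commutatorElement_eq_one_iff_mul_comm]
  exact h.eq_one hB hU hne (B.mul_mem (conj_mem_of_cj_eq hn hb) (B.inv_mem hb))
    (l.comm y hy b (hBP hb))

theorem cen {B : Subgroup G} (hB : B ∈ 𝒱) (hBP : B ≤ P) (hne : B ≠ U) {y b : G} (hy : y ∈ P)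
    (hb : b ∈ B) (h1 : b ≠ 1) (hyb : y * b = b * y) : ∀ b' ∈ B, y * b' = b' * y :=
  l.cen_of_norm h hU hB hBP hne hy (h.cj_eq_of_comm hB hb h1 hyb)

/-- for `y` not centralizing `B` the commutators `⁅y, b⁆` fill `U` -/
theorem surj [Finite G] {B : Subgroup G} (hB : B ∈ 𝒱) (hBP : B ≤ P) (hne : B ≠ U) {y : G}
    (hy : y ∈ P) (hn : ¬∀ b ∈ B, y * b = b * y) {a : G} (ha : a ∈ U) : ∃ b ∈ B, ⁅y, b⁆ = a := by
  let f : B → U := fun b => ⟨⁅y, (b : G)⁆, l.comm y hy b (hBP b.2)⟩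
  have hf : Function.Injective f := by
    intro b b' e
    have e1 : ⁅y, (b : G)⁆ = ⁅y, (b' : G)⁆ := congrArg Subtype.val e
    by_contra hbb
    have h1 : (b : G) * (b' : G)⁻¹ ≠ 1 := fun e => hbb (Subtype.ext (mul_inv_eq_one.1 e))
    refine hn (l.cen h hU hB hBP hne hy (B.mul_mem b.2 (B.inv_mem b'.2)) h1 ?_)
    rw [← commutatorElement_eq_one_iff_mul_comm, l.comm_mul_right hy (hBP b.2) (P.inv_mem (hBP b'.2)),
      l.comm_inv_right hy (hBP b'.2), e1, mul_inv_cancel]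
  obtain ⟨b, hb⟩ := (hf.bijective_of_nat_card_le (h.card U hU B hB).le).2 ⟨a, ha⟩
  exact ⟨b, b.2, congrArg Subtype.val hb⟩

end TILoc

/-- two non-commuting members `B`, `C` inside the group `P` at `A` -/
structure TINC (𝒱 : Set (Subgroup G)) (A P B C : Subgroup G) : Prop where
  cls : TICls 𝒱
  loc : TILoc A P
  hA : A ∈ 𝒱
  hB : B ∈ 𝒱
  hC : C ∈ 𝒱
  hBP : B ≤ P
  hCP : C ≤ P
  hBA : B ≠ A
  hCA : C ≠ A
  nc : ¬∀ b ∈ B, ∀ c ∈ C, b * c = c * b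

namespace TINC
variable {𝒱 : Set (Subgroup G)} {A P B C : Subgroup G} (n : TINC 𝒱 A P B C)
include n

theorem symm : TINC 𝒱 A P C B :=
  ⟨n.cls, n.loc, n.hA, n.hC, n.hB, n.hCP, n.hBP, n.hCA, n.hBA,
    fun h => n.nc fun b hb c hc => (h c hc b hb).symm⟩

theorem cj (g : G) : TINC 𝒱 (cj g A) (cj g P) (cj g B) (cj g C) :=
  ⟨n.cls, n.loc.cj g, n.cls.conj _ n.hA g, n.cls.conj _ n.hB g, n.cls.conj _ n.hC g,
    cj_mono g n.hBP, cj_mono g n.hCP, fun e => n.hBA (cj_inj g e), fun e => n.hCA (cj_inj g e),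
    fun h => n.nc fun b hb c hc => by
      have := h _ (conj_mem_cj (g := g) hb) _ (conj_mem_cj (g := g) hc)
      calc b * c = g⁻¹ * (g * b * g⁻¹ * (g * c * g⁻¹)) * g := by group
        _ = c * b := by rw [this]; group⟩

theorem not_comm {b c : G} (hb : b ∈ B) (hc : c ∈ C) (hb1 : b ≠ 1) (hc1 : c ≠ 1) :
    c * b ≠ b * c := by
  intro e
  have h1 := n.loc.cen n.cls n.hA n.hB n.hBP n.hBA (n.hCP hc) hb hb1 e
  exact n.nc fun b' hb' c' hc' =>
    n.loc.cen n.cls n.hA n.hC n.hCP n.hCA (n.hBP hb') hc hc1 (h1 b' hb').symm c' hc'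

theorem not_cen {c : G} (hc : c ∈ C) (hc1 : c ≠ 1) : ¬∀ b ∈ B, c * b = b * c := by
  obtain ⟨b, hb, hb1⟩ := n.cls.exists_ne_one n.hB
  exact fun h => n.not_comm hb hc hb1 hc1 (h b hb)

variable [Finite G]

theorem surjB {c : G} (hc : c ∈ C) (hc1 : c ≠ 1) {a : G} (ha : a ∈ A) : ∃ b ∈ B, ⁅c, b⁆ = a :=
  n.loc.surj n.cls n.hA n.hB n.hBP n.hBA (n.hCP hc) (n.not_cen hc hc1) ha

theorem surjC {b : G} (hb : b ∈ B) (hb1 : b ≠ 1) {a : G} (ha : a ∈ A) : ∃ c ∈ C, ⁅c, b⁆ = a := by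
  obtain ⟨c, hc, e⟩ := n.symm.surjB hb hb1 (A.inv_mem ha)
  exact ⟨c, hc, by rw [← commutatorElement_inv, e, inv_inv]⟩

/-- `P = C * C_P(B)` -/
theorem decomp {y : G} (hy : y ∈ P) :
    ∃ c ∈ C, ∃ r ∈ P, (∀ b ∈ B, r * b = b * r) ∧ y = c * r := by
  obtain ⟨b, hb, hb1⟩ := n.cls.exists_ne_one n.hB
  obtain ⟨c, hc, e⟩ := n.surjC hb hb1 (n.loc.comm y hy b (n.hBP hb))
  have hr : c⁻¹ * y ∈ P := P.mul_mem (P.inv_mem (n.hCP hc)) hy
  refine ⟨c, hc, c⁻¹ * y, hr, n.loc.cen n.cls n.hA n.hB n.hBP n.hBA hr hb hb1 ?_, by group⟩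
  rw [← commutatorElement_eq_one_iff_mul_comm,
    n.loc.comm_mul_left (P.inv_mem (n.hCP hc)) hy (n.hBP hb),
    n.loc.comm_inv_left (n.hCP hc) (n.hBP hb), e, inv_mul_cancel]

/-- an element `a * b` with `b ≠ 1` is conjugate to `b` under `C` -/
theorem exists_conj {a b : G} (ha : a ∈ A) (hb : b ∈ B) (hb1 : b ≠ 1) :
    ∃ c ∈ C, c * b * c⁻¹ = a * b := by
  obtain ⟨c, hc, e⟩ := n.surjC hb hb1 ha
  exact ⟨c, hc, by rw [← e, commutatorElement_def, inv_mul_cancel_right]⟩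

/-- an element of `P` centralizing `C_P(B)` lies in `A B` -/
theorem mem_of_cen {t : G} (ht : t ∈ P)
    (hc : ∀ r ∈ P, (∀ b ∈ B, r * b = b * r) → t * r = r * t) :
    ∃ a ∈ A, ∃ b ∈ B, t = a * b := by
  obtain ⟨c, hc', hc1⟩ := n.cls.exists_ne_one n.hC
  obtain ⟨b, hb, e⟩ := n.surjB hc' hc1 (n.loc.comm c (n.hCP hc') t ht)
  have hs : t * b⁻¹ ∈ P := P.mul_mem ht (P.inv_mem (n.hBP hb))
  have h1 : t * b⁻¹ * c = c * (t * b⁻¹) := by
    symm
    rw [← commutatorElement_eq_one_iff_mul_comm,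
      n.loc.comm_mul_right (n.hCP hc') ht (P.inv_mem (n.hBP hb)),
      n.loc.comm_inv_right (n.hCP hc') (n.hBP hb), e, mul_inv_cancel]
  have h2 := n.loc.cen n.cls n.hA n.hC n.hCP n.hCA hs hc' hc1 h1
  refine ⟨t * b⁻¹, n.loc.ctr _ hs fun y hy => ?_, b, hb, by group⟩
  obtain ⟨c', hc'', r, hr, hrb, rfl⟩ := n.decomp hy
  have h3 : t * b⁻¹ * r = r * (t * b⁻¹) := by
    rw [mul_assoc, ← hrb _ (B.inv_mem hb), ← mul_assoc, hc r hr hrb, mul_assoc]
  rw [← mul_assoc, h2 c' hc'', mul_assoc, h3, mul_assoc]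

/-- an element normalizing `A` and centralizing `B` and a nontrivial element of `A`
centralizes `A` -/
theorem cen_A {x a₀ : G} (hx : H85.cj x A = A) (hxB : ∀ b ∈ B, x * b = b * x) (ha₀ : a₀ ∈ A)
    (h1 : a₀ ≠ 1) (hxa : x * a₀ = a₀ * x) : ∀ a ∈ A, x * a = a * x := by
  obtain ⟨b₀, hb₀, hb1⟩ := n.cls.exists_ne_one n.hB
  obtain ⟨c, hc, e⟩ := n.surjC hb₀ hb1 ha₀
  have hc1 : c ≠ 1 := by
    rintro rfl
    rw [commutatorElement_one_left] at e
    exact h1 e.symm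
  have hcx : x * c * x⁻¹ ∈ P := n.loc.norm x hx c (n.hCP hc)
  have hconj : ∀ b ∈ B, x * ⁅c, b⁆ * x⁻¹ = ⁅x * c * x⁻¹, b⁆ := by
    intro b hb
    have : b = x * b * x⁻¹ := by rw [hxB b hb]; group
    conv_rhs => rw [this]
    simp only [commutatorElement_def]; group
  have hs : c⁻¹ * (x * c * x⁻¹) ∈ P := P.mul_mem (P.inv_mem (n.hCP hc)) hcx
  have h2 : ∀ b ∈ B, c⁻¹ * (x * c * x⁻¹) * b = b * (c⁻¹ * (x * c * x⁻¹)) := by
    refine n.loc.cen n.cls n.hA n.hB n.hBP n.hBA hs hb₀ hb1 ?_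
    rw [← commutatorElement_eq_one_iff_mul_comm,
      n.loc.comm_mul_left (P.inv_mem (n.hCP hc)) hcx (n.hBP hb₀), ← hconj b₀ hb₀,
      n.loc.comm_inv_left (n.hCP hc) (n.hBP hb₀), e, hxa]
    group
  intro a ha
  obtain ⟨b, hb, rfl⟩ := n.surjB hc hc1 ha
  have h3 := commutatorElement_eq_one_iff_mul_comm.2 (h2 b hb)
  rw [n.loc.comm_mul_left (P.inv_mem (n.hCP hc)) hcx (n.hBP hb), ← hconj b hb,
    n.loc.comm_inv_left (n.hCP hc) (n.hBP hb), inv_mul_eq_one] at h3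
  rw [← mul_inv_eq_iff_eq_mul]
  exact h3.symm

end TINC

end Cfsg.Agent.H56
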