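import Mathlib
import Cfsg.Agent.H56.TIPair

/-!
Symmetry of the relation "`B` lies in the class two group at `A`".
-/

set_option autoImplicit false

namespace Cfsg.Agent.H56

open Subgroup H85
open scoped commutatorElement

variable {G : Type*} [Group G] [Finite G]

namespace TINC
variable {𝒱 : Set (Subgroup G)} {A P B C : Subgroup G} (n : TINC 𝒱 A P B C)
include n

theorem le_of_conj {g : G} (hg : H85.cj g A = B) {x a a' b' : G} (hx : H85.cj x B = B) (ha : a ∈ A)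
    (h1 : a ≠ 1) (ha' : a' ∈ A) (hb' : b' ∈ B) (e : x * a * x⁻¹ = a' * b')
    (hne : H85.cj x A ≠ A) : A ≤ H85.cj g P := by
  have hb1 : b' ≠ 1 := by
    rintro rfl
    exact hne (n.cls.cj_eq n.hA n.hA ha h1 (by rw [e, mul_one]; exact ha'))
  obtain ⟨c, hc, ec⟩ := n.exists_conj ha' hb' hb1
  have h2 : H85.cj (c⁻¹ * x) A = B := n.cls.cj_eq n.hA n.hB ha h1 (by
    have : c⁻¹ * x * a * (c⁻¹ * x)⁻¹ = b' := by
      calc c⁻¹ * x * a * (c⁻¹ * x)⁻¹ = c⁻¹ * (x * a * x⁻¹) * c := by group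
        _ = b' := by rw [e, ← ec]; group
    rw [this]; exact hb')
  have h3 : H85.cj (c⁻¹ * x) P = H85.cj g P := by
    have : H85.cj (g⁻¹ * (c⁻¹ * x)) A = A := by rw [cj_mul, h2, ← hg, cj_inv_cj]
    have := n.loc.cj_eq_self this
    rw [cj_mul] at this
    conv_rhs => rw [← this, cj_cj_inv]
  have h4 : H85.cj c⁻¹ B ≤ H85.cj g P := by
    rw [← h3, cj_mul, cj_le_cj_iff, ← hx]
    exact cj_mono x n.hBP
  have hc1 : c⁻¹ ≠ 1 := by
    intro h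
    rw [h, one_mul, ← hx] at h2
    exact n.hBA (cj_inj x h2).symm
  have h5 : B ≤ H85.cj g P := hg ▸ cj_mono g n.loc.le
  intro u hu
  obtain ⟨b, hb, rfl⟩ := n.surjB (C.inv_mem hc) hc1 hu
  exact mul_mem (h4 (conj_mem_cj hb)) (inv_mem (h5 hb))

theorem le_cj {g : G} (hg : H85.cj g A = B) : A ≤ H85.cj g P := by
  by_contra hcon
  set P' := H85.cj g P with hP'
  have n' : TINC 𝒱 B P' (H85.cj g B) (H85.cj g C) := hg ▸ n.cj g
  have l := n.loc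
  have l' := n'.loc
  have hAB : ∀ a ∈ A, ∀ b ∈ B, a * b = b * a := fun a ha b hb => (l.cent b (n.hBP hb) a ha).symm
  have H2 : ∀ x ∈ P', ∀ a ∈ A, a ≠ 1 → ⁅x, a⁆ ∈ B → ∀ a' ∈ A, x * a' = a' * x := by
    intro x hx a ha h1 hb
    have hxA : H85.cj x A = A := by
      by_contra hne
      refine hcon (n.le_of_conj hg (l'.cj_self hx) ha h1 ha hb ?_ hne)
      rw [hAB a ha _ hb, commutatorElement_def, inv_mul_cancel_right]
    refine n.cen_A hxA (l'.cent x hx) ha h1 ?_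
    rw [← commutatorElement_eq_one_iff_mul_comm]
    exact n.cls.eq_one n.hA n.hB n.hBA.symm
      (A.mul_mem (conj_mem_of_cj_eq hxA ha) (A.inv_mem ha)) hb
  have hnot : ¬∀ x ∈ P', ∀ a ∈ A, x * a = a * x := fun h => hcon fun a ha =>
    l'.J a (hAB a ha) fun x hx => by
      rw [commutatorElement_eq_one_iff_mul_comm.2 (h x hx a ha)]; exact one_mem _
  have H2' : ∀ a ∈ A, (∀ x ∈ P', ⁅x, a⁆ ∈ B) → a = 1 := by
    intro a ha h
    by_contra h1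
    exact hnot fun x hx => H2 x hx a ha h1 (h x hx)
  have hAP : ∀ a ∈ A, a ∈ P' → a = 1 := fun a ha hp => H2' a ha fun x hx => l'.comm x hx a hp
  -- elements centralizing `B` normalize `P'`
  have hnB : ∀ r, (∀ b ∈ B, r * b = b * r) → ∀ x ∈ P', ⁅x, r⁆ ∈ P' := by
    intro r hr x hx
    have := P'.mul_mem hx (l'.norm r (cj_eq_of_forall_comm hr) _ (P'.inv_mem hx))
    simpa only [commutatorElement_def, mul_assoc] using this
  have hinv : ∀ x : G, ∀ a ∈ A, a * ⁅x, a⁆ * a⁻¹ = ⁅x, a⁆⁻¹ := by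
    intro x a ha
    have e1 := n.cls.sq A n.hA a ha
    calc a * ⁅x, a⁆ * a⁻¹ = a * x * a⁻¹ * (a * a) * x⁻¹ * (a * a)⁻¹ := by
          simp only [commutatorElement_def]; group
      _ = ⁅x, a⁆⁻¹ := by rw [e1]; simp only [commutatorElement_def]; group
  have H3 : ∀ x ∈ P', ∀ a ∈ A, ∀ a' ∈ A, ⁅x, a⁆ * a' = a' * ⁅x, a⁆ := by
    intro x hx a ha
    by_cases h1 : a = 1
    · subst h1; simp
    have hd := hnB a (hAB a ha) x hx
    refine H2 _ hd a ha h1 ?_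
    have : ⁅⁅x, a⁆, a⁆ = ⁅x, a⁆ * ⁅x, a⁆ := by
      calc ⁅⁅x, a⁆, a⁆ = ⁅x, a⁆ * (a * ⁅x, a⁆ * a⁻¹)⁻¹ := by
            rw [commutatorElement_def ⁅x, a⁆]; group
        _ = _ := by rw [hinv x a ha, inv_inv]
    rw [this]
    exact l'.sq _ hd
  have H4 : ∀ t ∈ P, t ∈ P' → t ∈ B := by
    intro t ht ht'
    obtain ⟨a, ha, b, hb, e⟩ := n.mem_of_cen ht fun r hr hrB => by
      rw [← commutatorElement_eq_one_iff_mul_comm]
      exact hAP _ (l.comm t ht r hr) (hnB r hrB t ht')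
    have : a = t * b⁻¹ := by rw [e]; group
    have h1 := hAP a ha (this ▸ P'.mul_mem ht' (P'.inv_mem (l'.le hb)))
    rw [e, h1, one_mul]; exact hb
  have H5 : ∀ s ∈ P', (∀ a ∈ A, s * a = a * s) → ∀ r ∈ P, (∀ b ∈ B, r * b = b * r) →
      ⁅r, s⁆ ∈ B := by
    intro s hs hsA r hr hrB
    rw [← commutatorElement_inv]
    exact B.inv_mem (H4 _ (P.mul_mem (l.norm s (cj_eq_of_forall_comm hsA) r hr) (P.inv_mem hr))
      (hnB r hrB s hs))
  obtain ⟨a₀, ha₀, ha1⟩ := n.cls.exists_ne_one n.hA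
  have H6 : ∀ x ∈ P', ∀ r ∈ P, (∀ b ∈ B, r * b = b * r) → ∀ a ∈ A, ⁅x, r⁆ * a = a * ⁅x, r⁆ := by
    intro x hx r hr hrB
    refine H2 _ (hnB r hrB x hx) a₀ ha₀ ha1 ?_
    have h1 := H5 _ (hnB a₀ (hAB a₀ ha₀) _ (P'.inv_mem hx)) (H3 _ (P'.inv_mem hx) a₀ ha₀) r hr hrB
    have h2 := l.cent r hr a₀ ha₀
    have h3 : a₀ = r * a₀ * r⁻¹ := by rw [h2]; group
    have h4 : ⁅⁅x, r⁆, a₀⁆ = x * ⁅r, ⁅x⁻¹, a₀⁆⁆ * x⁻¹ := by
      have : r * ⁅x⁻¹, a₀⁆ * r⁻¹ = ⁅r * x⁻¹ * r⁻¹, a₀⁆ := by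
        conv_rhs => rw [h3]
        simp only [commutatorElement_def]; group
      rw [commutatorElement_def r, this]
      simp only [commutatorElement_def]; group
    rw [h4]
    exact conj_mem_of_cj_eq (l'.cj_self hx) h1
  have H7 : ∀ r ∈ P, (∀ b ∈ B, r * b = b * r) → ∀ s ∈ P, (∀ b ∈ B, s * b = b * s) →
      r * s = s * r := by
    intro r hr hrB s hs hsB
    rw [← commutatorElement_eq_one_iff_mul_comm]
    refine H2' _ (l.comm r hr s hs) fun y hy => ?_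
    have hsr : ∀ b ∈ B, (s * r)⁻¹ * b = b * (s * r)⁻¹ := by
      intro b hb
      rw [inv_mul_eq_iff_eq_mul, ← mul_assoc, eq_mul_inv_iff_mul_eq, mul_assoc s, hrB b hb,
        ← mul_assoc, ← mul_assoc, hsB b hb]
    have hx := l'.norm _ (cj_eq_of_forall_comm hsr) y hy
    set x := (s * r)⁻¹ * y * (s * r)⁻¹⁻¹ with hxdef
    have hy' : y = s * r * x * (s * r)⁻¹ := by rw [hxdef]; group
    have he : ∀ t ∈ P, (∀ b ∈ B, t * b = b * t) → ⁅t, x⁆ ∈ P' ∧ ∀ a ∈ A, ⁅t, x⁆ * a = a * ⁅t, x⁆ := by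
      intro t ht htB
      rw [← commutatorElement_inv]
      refine ⟨P'.inv_mem (hnB t htB x hx), fun a ha => ?_⟩
      rw [inv_mul_eq_iff_eq_mul, ← mul_assoc, eq_mul_inv_iff_mul_eq, H6 x hx t ht htB a ha]
    obtain ⟨e1, e1'⟩ := he r hr hrB
    obtain ⟨e2, e2'⟩ := he s hs hsB
    have key : ⁅y, ⁅r, s⁆⁆ = (⁅r, ⁅s, x⁆⁆ * ⁅⁅s, x⁆, ⁅r, x⁆⁆ * ⁅s, ⁅r, x⁆⁆⁻¹)⁻¹ := by
      rw [hy']
      simp only [commutatorElement_def]; group
    rw [key]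
    exact B.inv_mem (B.mul_mem (B.mul_mem (H5 _ e2 e2' r hr hrB) (l'.comm _ e2 _ e1))
      (B.inv_mem (H5 _ e1 e1' s hs hsB)))
  have ZB : ∀ y ∈ P, (∀ b ∈ B, y * b = b * y) → ∃ a ∈ A, ∃ b ∈ B, y = a * b :=
    fun y hy hyB => n.mem_of_cen hy fun r hr hrB => H7 y hy hyB r hr hrB
  have ZC : ∀ y ∈ P, (∀ c ∈ C, y * c = c * y) → ∃ a ∈ A, ∃ c ∈ C, y = a * c := by
    intro y hy hyC
    obtain ⟨c, hc, r, hr, hrB, e⟩ := n.decomp hy
    obtain ⟨a, ha, b, hb, rfl⟩ := ZB r hr hrB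
    have hb1 : b = 1 := by
      by_contra hb1
      obtain ⟨c₀, hc₀, hc1⟩ := n.cls.exists_ne_one n.hC
      refine n.not_comm hb hc₀ hb1 hc1 ?_
      have e1 : b = a⁻¹ * (c⁻¹ * y) := by rw [e]; group
      have e2 := n.cls.comm n.hC (C.inv_mem hc) hc₀
      have e3 := l.cent c₀ (n.hCP hc₀) _ (A.inv_mem ha)
      rw [e1, ← mul_assoc c₀, e3, mul_assoc, ← mul_assoc c₀, ← e2, mul_assoc, ← hyC c₀ hc₀]
      simp only [mul_assoc]
    exact ⟨a, ha, c, hc, by rw [e, hb1, mul_one, l.cent c (n.hCP hc) a ha]⟩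
  have Ztr : ∀ D : Subgroup G, (∀ y ∈ P, (∀ c ∈ D, y * c = c * y) → ∃ a ∈ A, ∃ c ∈ D, y = a * c) →
      ∀ y ∈ P', (∀ c ∈ H85.cj g D, y * c = c * y) → ∃ a ∈ B, ∃ c ∈ H85.cj g D, y = a * c := by
    intro D hD y hy hyD
    obtain ⟨a, ha, c, hc, e⟩ := hD _ (mem_cj.1 hy) fun c hc => by
      have := hyD _ (conj_mem_cj (g := g) hc)
      calc g⁻¹ * y * g * c = g⁻¹ * (y * (g * c * g⁻¹)) * g := by group
        _ = c * (g⁻¹ * y * g) := by rw [this]; group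
    refine ⟨_, hg ▸ conj_mem_cj ha, _, conj_mem_cj hc, ?_⟩
    calc y = g * (g⁻¹ * y * g) * g⁻¹ := by group
      _ = _ := by rw [e]; group
  have fin : ∀ E ∈ 𝒱, E ≤ P' → E ≠ B →
      (∀ y ∈ P', (∀ c ∈ E, y * c = c * y) → ∃ a ∈ B, ∃ c ∈ E, y = a * c) →
      ∀ e ∈ E, ∀ a ∈ A, e * a = a * e := by
    intro E hE hEP hEB hZ
    have h1 : ∀ e ∈ E, e ≠ 1 → (∀ a ∈ A, e * a = a * e) → ∀ e ∈ E, ∀ a ∈ A, e * a = a * e :=
      fun e he he1 heA => n.cls.comm_of_norm hE n.hA fun a ha =>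
        n.cls.cj_eq_of_comm hE he he1 (heA a ha).symm
    obtain ⟨e, he, he1⟩ := n.cls.exists_ne_one hE
    have hd := hnB a₀ (hAB a₀ ha₀) e (hEP he)
    have hdA := H3 e (hEP he) a₀ ha₀
    have hdd : ⁅e, a₀⁆⁻¹ = ⁅e, a₀⁆ := by rw [← hinv e a₀ ha₀, ← hdA a₀ ha₀]; group
    have hde : ⁅e, a₀⁆ * e = e * ⁅e, a₀⁆ := by
      conv_lhs => rw [← hdd]
      have e1 := n.cls.sq E hE e he
      have e2 := n.cls.inv n.hA ha₀
      have e3 := n.cls.inv hE he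
      simp only [commutatorElement_def, mul_inv_rev, e2, e3]
      calc a₀ * (e * (a₀ * e)) * e = a₀ * e * a₀ * (e * e) := by group
        _ = (e * e) * a₀ * e * a₀ := by rw [e1]; group
        _ = _ := by group
    obtain ⟨b, hb, e', he', ed⟩ := hZ _ hd (l'.cen n.cls n.hB hE hEP hEB hd he he1 hde)
    by_cases h2 : e' = 1
    · refine h1 e he he1 (H2 e (hEP he) a₀ ha₀ ha1 ?_)
      rw [ed, h2, mul_one]; exact hb
    · refine h1 e' he' h2 fun a ha => ?_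
      have : e' = b⁻¹ * ⁅e, a₀⁆ := by rw [ed]; group
      rw [this, mul_assoc, hdA a ha, ← mul_assoc, ← hAB a ha _ (B.inv_mem hb), mul_assoc]
  have fB := fin _ n'.hB n'.hBP n'.hBA (Ztr B ZB)
  have fC := fin _ n'.hC n'.hCP n'.hCA (Ztr C ZC)
  refine hnot fun x hx a ha => ?_
  obtain ⟨c, hc, r, hr, hrB, rfl⟩ := n'.decomp hx
  obtain ⟨b, hb, e, he, rfl⟩ := Ztr B ZB r hr hrB
  rw [mul_assoc, mul_assoc, fB e he a ha, ← mul_assoc b, ← hAB a ha b hb, ← mul_assoc,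
    ← mul_assoc, fC c hc a ha]
  simp only [mul_assoc]

end TINC

end Cfsg.Agent.H56
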