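import Mathlib
import Cfsg.Agent.H56.TISym
import Cfsg.Agent.H85.SL2Rec
import Cfsg.Agent.H85.Bridge

/-!
The symmetric configuration: partition of `W = A B`, the action of `⟨P, P'⟩` as `SL₂(q)`.
-/

set_option autoImplicit false

namespace Cfsg.Agent.H56

open Subgroup H85
open scoped commutatorElement

variable {G : Type*} [Group G] [Finite G]

namespace TINC
variable {𝒱 : Set (Subgroup G)} {A P B C : Subgroup G} (n : TINC 𝒱 A P B C)
include n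

omit [Finite G] in
theorem mem_sup {w : G} : w ∈ A ⊔ B ↔ ∃ a ∈ A, ∃ b ∈ B, a * b = w :=
  mem_sup_of_le_normalizer fun _ hb => cj_eq_iff_mem_normalizer.1 (n.loc.cj_self (n.hBP hb))

omit [Finite G] in
theorem conj_mem_sup {y w : G} (hy : y ∈ P) (hw : w ∈ A ⊔ B) : y * w * y⁻¹ ∈ A ⊔ B := by
  have hwP : w ∈ P := (sup_le n.loc.le n.hBP : A ⊔ B ≤ P) hw
  have : y * w * y⁻¹ = ⁅y, w⁆ * w := by rw [commutatorElement_def]; group
  rw [this]
  exact mul_mem (mem_sup_left (n.loc.comm y hy w hwP)) hw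

omit [Finite G] in
theorem le_normalizer : P ≤ normalizer ((A ⊔ B : Subgroup G) : Set G) := by
  intro y hy w
  refine ⟨n.conj_mem_sup hy, fun h => ?_⟩
  simpa [mul_assoc] using n.conj_mem_sup (P.inv_mem hy) h

theorem partition {w : G} (hw : w ∈ A ⊔ B) : ∃ U ∈ 𝒱, U ≤ A ⊔ B ∧ w ∈ U := by
  obtain ⟨a, ha, b, hb, rfl⟩ := n.mem_sup.1 hw
  by_cases hb1 : b = 1
  · exact ⟨A, n.hA, le_sup_left, by rw [hb1, mul_one]; exact ha⟩
  obtain ⟨c, hc, e⟩ := n.exists_conj ha hb hb1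
  exact ⟨H85.cj c B, n.cls.conj _ n.hB c,
    cj_le_of_mem_normalizer le_sup_right (n.le_normalizer (n.hCP hc)), e ▸ conj_mem_cj hb⟩

omit [Finite G] in
theorem sup_comm_mul {u v : G} (hu : u ∈ A ⊔ B) (hv : v ∈ A ⊔ B) : u * v = v * u := by
  obtain ⟨a, ha, b, hb, rfl⟩ := n.mem_sup.1 hu
  obtain ⟨a', ha', b', hb', rfl⟩ := n.mem_sup.1 hv
  have e1 := n.loc.cent _ (P.mul_mem (n.loc.le ha') (n.hBP hb')) a ha
  have e2 := n.loc.cent _ (n.hBP hb) a' ha'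
  have e3 := n.cls.comm n.hB hb hb'
  rw [← mul_assoc (a' * b'), e1, mul_assoc, mul_assoc, mul_assoc, ← e3, ← mul_assoc b, e2, mul_assoc]

omit [Finite G] in
theorem sup_sq {u : G} (hu : u ∈ A ⊔ B) : u ^ 2 = 1 := by
  obtain ⟨a, ha, b, hb, rfl⟩ := n.mem_sup.1 hu
  rw [pow_two, mul_assoc, ← mul_assoc b, n.loc.cent _ (n.hBP hb) a ha, mul_assoc,
    n.cls.sq B n.hB b hb, mul_one, n.cls.sq A n.hA a ha]

omit [Finite G] in
/-- an element of `A B` centralizing a nontrivial element of `C` lies in `A` -/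
theorem mem_of_comm {w c : G} (hw : w ∈ A ⊔ B) (hc : c ∈ C) (hc1 : c ≠ 1) (e : c * w = w * c) :
    w ∈ A := by
  obtain ⟨a, ha, b, hb, rfl⟩ := n.mem_sup.1 hw
  by_cases hb1 : b = 1
  · rw [hb1, mul_one]; exact ha
  refine absurd ?_ (n.not_comm hb hc hb1 hc1)
  rw [← mul_assoc, n.loc.cent c (n.hCP hc) a ha, mul_assoc, mul_assoc] at e
  exact mul_left_cancel e

omit [Finite G] in
theorem sup_inf_centralizer : (A ⊔ B) ⊓ centralizer (C : Set G) = A := by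
  apply le_antisymm
  · intro w hw
    obtain ⟨c, hc, hc1⟩ := n.cls.exists_ne_one n.hC
    exact n.mem_of_comm hw.1 hc hc1 (hw.2 c hc)
  · exact fun a ha => ⟨mem_sup_left ha, fun c hc => n.loc.cent c (n.hCP hc) a ha⟩

omit [Finite G] in
theorem card_sup : Nat.card C * Nat.card A = Nat.card ↥(A ⊔ B) := by
  rw [n.cls.card C n.hC B n.hB, mul_comm, ← Nat.card_prod]
  refine Nat.card_congr (Equiv.ofBijective
    (fun x : A × B => (⟨x.1 * x.2, mul_mem (mem_sup_left x.1.2) (mem_sup_right x.2.2)⟩ : ↥(A ⊔ B)))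
    ⟨?_, ?_⟩)
  · rintro ⟨a, b⟩ ⟨a', b'⟩ e
    have e1 : (a : G) * b = a' * b' := congrArg Subtype.val e
    have e2 : (a' : G)⁻¹ * a = b' * (b : G)⁻¹ := by
      rw [inv_mul_eq_iff_eq_mul, ← mul_assoc, ← e1, mul_inv_cancel_right]
    have e3 := n.cls.eq_one n.hA n.hB n.hBA.symm (A.mul_mem (A.inv_mem a'.2) a.2)
      (e2 ▸ B.mul_mem b'.2 (B.inv_mem b.2))
    have e4 : (a' : G) = a := inv_mul_eq_one.1 e3
    rw [e4] at e1
    exact Prod.ext (Subtype.ext e4.symm) (Subtype.ext (mul_left_cancel e1))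
  · rintro ⟨w, hw⟩
    obtain ⟨a, ha, b, hb, rfl⟩ := n.mem_sup.1 hw
    exact ⟨(⟨a, ha⟩, ⟨b, hb⟩), rfl⟩

variable {P' D : Subgroup G} (n' : TINC 𝒱 B P' A D)
include n'

theorem exists_conj_AB {a b : G} (ha : a ∈ A) (ha1 : a ≠ 1) (hb : b ∈ B) (hb1 : b ≠ 1) :
    ∃ x, x * a * x⁻¹ = b := by
  obtain ⟨c, -, e⟩ := n.exists_conj ha hb hb1
  obtain ⟨d, -, e'⟩ := n'.exists_conj hb ha ha1
  refine ⟨c⁻¹ * d, ?_⟩
  calc c⁻¹ * d * a * (c⁻¹ * d)⁻¹ = c⁻¹ * (d * a * d⁻¹) * c := by group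
    _ = b := by rw [e', n.loc.cent b (n.hBP hb) a ha, ← e]; group

theorem exists_conj_AA {a a' : G} (ha : a ∈ A) (ha1 : a ≠ 1) (ha' : a' ∈ A) (ha1' : a' ≠ 1) :
    ∃ x, H85.cj x A = A ∧ x * a * x⁻¹ = a' := by
  obtain ⟨b, hb, hb1⟩ := n.cls.exists_ne_one n.hB
  obtain ⟨x, e⟩ := n.exists_conj_AB n' ha ha1 hb hb1
  obtain ⟨y, e'⟩ := n.exists_conj_AB n' ha' ha1' hb hb1
  have : y⁻¹ * x * a * (y⁻¹ * x)⁻¹ = a' := by
    calc y⁻¹ * x * a * (y⁻¹ * x)⁻¹ = y⁻¹ * (x * a * x⁻¹) * y := by group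
      _ = a' := by rw [e, ← e']; group
  exact ⟨y⁻¹ * x, n.cls.cj_eq n.hA n.hA ha ha1 (this ▸ ha'), this⟩

theorem exists_swap {c : G} (hc : c ∈ C) (hc1 : c ≠ 1) :
    ∃ d ∈ D, ∀ b ∈ B, d * (c * b * c⁻¹) * d⁻¹ ∈ A := by
  obtain ⟨b, hb, hb1⟩ := n.cls.exists_ne_one n.hB
  have ha := n.loc.comm c (n.hCP hc) b (n.hBP hb)
  have ha1 : ⁅c, b⁆ ≠ 1 := fun e =>
    n.not_comm hb hc hb1 hc1 (commutatorElement_eq_one_iff_mul_comm.1 e)
  obtain ⟨d, hd, e⟩ := n'.exists_conj hb ha ha1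
  have h1 : H85.cj (d⁻¹ * c) B = A := n.cls.cj_eq n.hB n.hA hb hb1 (by
    have : d⁻¹ * c * b * (d⁻¹ * c)⁻¹ = ⁅c, b⁆ := by
      calc d⁻¹ * c * b * (d⁻¹ * c)⁻¹ = d⁻¹ * (⁅c, b⁆ * b) * d := by
            rw [commutatorElement_def]; group
        _ = ⁅c, b⁆ := by rw [← n.loc.cent b (n.hBP hb) _ ha, ← e]; group
    rw [this]; exact ha)
  refine ⟨d⁻¹, D.inv_mem hd, fun b' hb' => ?_⟩
  have := h1 ▸ conj_mem_cj (g := d⁻¹ * c) hb'
  convert this using 1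
  group

theorem sl2 (hN : ((centralizer ((A ⊔ B : Subgroup G) : Set G)).subgroupOf (P ⊔ P')).Normal) :
    ∃ (F : Type) (_ : Field F) (_ : Fintype F), Fintype.card F = Nat.card A ∧
      Nonempty (↥(P ⊔ P') ⧸ (centralizer ((A ⊔ B : Subgroup G) : Set G)).subgroupOf (P ⊔ P') ≃*
        Matrix.SpecialLinearGroup (Fin 2) F) := by
  have hBA : B ⊔ A = A ⊔ B := sup_comm _ _
  have hH : P ⊔ P' ≤ normalizer ((A ⊔ B : Subgroup G) : Set G) :=
    sup_le n.le_normalizer (hBA ▸ n'.le_normalizer)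
  obtain ⟨W, _, _, j, br⟩ := exists_br (V := A ⊔ B) (P := P ⊔ P')
    ⟨⟨fun u v => Subtype.ext (n.sup_comm_mul u.2 v.2)⟩⟩ hH
  have := br.finite
  have hC : C ≤ P ⊔ P' := n.hCP.trans le_sup_left
  have hD : D ≤ P ⊔ P' := n'.hCP.trans le_sup_right
  have fC : br.tr (fix W (C.subgroupOf (P ⊔ P'))) = A := by
    rw [br.tr_fix' hC, n.sup_inf_centralizer]
  have fD : br.tr (fix W (D.subgroupOf (P ⊔ P'))) = B := by
    rw [br.tr_fix' hD, ← hBA, n'.sup_inf_centralizer]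
  have mC : ∀ w, w ∈ fix W (C.subgroupOf (P ⊔ P')) ↔ j w ∈ A := fun w => by
    rw [← br.mem_tr', fC]
  have mD : ∀ w, w ∈ fix W (D.subgroupOf (P ⊔ P')) ↔ j w ∈ B := fun w => by
    rw [← br.mem_tr', fD]
  have hWP : ∀ w, j w ∈ P := fun w => (sup_le n.loc.le n.hBP : A ⊔ B ≤ P) (br.mem w)
  have hWP' : ∀ w, j w ∈ P' := fun w => (sup_le n'.hBP n'.loc.le : A ⊔ B ≤ P') (br.mem w)
  have ne : ∀ {E : Subgroup G}, E ∈ 𝒱 → E ≤ P ⊔ P' → E.subgroupOf (P ⊔ P') ≠ ⊥ := by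
    intro E hE hle e
    exact n.cls.ne E hE (by rw [← map_subgroupOf_eq_of_le hle, e, Subgroup.map_bot])
  have : Fact (Nat.Prime 2) := ⟨Nat.prime_two⟩
  obtain ⟨F, _, _, ψ, σ, d⟩ := sl2_rec (W := W) (p := 2)
    (br.smul_zero_of fun v hv => n.sup_sq hv)
    (A := C.subgroupOf (P ⊔ P')) (B := D.subgroupOf (P ⊔ P')) (ne n.hC hC) (ne n'.hC hD)
    (cm_le_iff'.2 fun c hc w => by
      rw [mC, br.dl]; exact n.loc.comm _ (n.hCP hc) _ (hWP w))
    (cm_le_iff'.2 fun c hc w => by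
      rw [mD, br.dl]; exact n'.loc.comm _ (n'.hCP hc) _ (hWP' w))
    (by rw [← br.card_tr, fC, ← br.card_eq, Nat.card_congr (subgroupOfEquivOfLe hC).toEquiv,
      n.card_sup])
    (by rw [← br.card_tr, fD, ← br.card_eq, Nat.card_congr (subgroupOfEquivOfLe hD).toEquiv,
      n'.card_sup, hBA])
    (fun c hc hc1 w hw => by
      rw [mD, br.dl] at hw
      rw [mC]
      exact n.mem_of_comm (br.mem w) hc (fun e => hc1 (Subtype.ext e))
        (commutatorElement_eq_one_iff_mul_comm.1 (n.cls.eq_one n.hA n.hB n.hBA.symm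
          (n.loc.comm _ (n.hCP hc) _ (hWP w)) hw)))
    (fun c hc hc1 w hw => by
      rw [mC, br.dl] at hw
      rw [mD]
      exact n'.mem_of_comm (hBA ▸ br.mem w) hc (fun e => hc1 (Subtype.ext e))
        (commutatorElement_eq_one_iff_mul_comm.1 (n.cls.eq_one n.hB n.hA n.hBA
          (n'.loc.comm _ (n'.hCP hc) _ (hWP' w)) hw)))
    (fun c hc hc1 => by
      obtain ⟨e, he, h⟩ := n.exists_swap n' hc (fun e => hc1 (Subtype.ext e))
      refine ⟨⟨e, hD he⟩, he, fun w hw => ?_⟩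
      rw [mC, br.act, br.act]
      exact h _ ((mD w).1 hw))
    (fun c hc hc1 => by
      obtain ⟨e, he, h⟩ := n'.exists_swap n hc (fun e => hc1 (Subtype.ext e))
      refine ⟨⟨e, hC he⟩, he, fun w hw => ?_⟩
      rw [mD, br.act, br.act]
      exact h _ ((mC w).1 hw))
  have hcen : ∀ (r : ↥(P ⊔ P')), (∀ a ∈ A, (r : G) * a = a * r) → (∀ b ∈ B, (r : G) * b = b * r) →
      ∀ w : W, r • w = w := by
    intro r h1 h2
    rw [br.forall_smul_iff]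
    intro u hu
    obtain ⟨a, ha, b, hb, rfl⟩ := n.mem_sup.1 hu
    rw [mul_assoc, ← h2 b hb, ← mul_assoc, ← h1 a ha, mul_assoc]
  obtain ⟨τ, hτ, hτ'⟩ := exists_sl2_hom ψ d.surjψ (E := (⊤ : Subgroup ↥(P ⊔ P')))
    (s := (P.subgroupOf (P ⊔ P') : Set ↥(P ⊔ P')) ∪ P'.subgroupOf (P ⊔ P'))
    (by
      rw [Subgroup.closure_union, closure_eq, closure_eq, ← subgroupOf_sup le_sup_left le_sup_right,
        subgroupOf_self])
    (by
      rintro y (hy | hy)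
      · obtain ⟨c, hc, r, hr, hrB, e⟩ := n.decomp hy
        have e' : y = ⟨c, hC hc⟩ * ⟨r, mem_sup_left hr⟩ := Subtype.ext e
        refine ⟨σ ⟨⟨c, hC hc⟩, mem_sup_left hc⟩, fun w => ?_⟩
        rw [e', mul_smul, hcen ⟨r, mem_sup_left hr⟩ (n.loc.cent r hr) hrB, ← d.act]
      · obtain ⟨c, hc, r, hr, hrB, e⟩ := n'.decomp hy
        have e' : y = ⟨c, hD hc⟩ * ⟨r, mem_sup_right hr⟩ := Subtype.ext e
        refine ⟨σ ⟨⟨c, hD hc⟩, mem_sup_right hc⟩, fun w => ?_⟩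
        rw [e', mul_smul, hcen ⟨r, mem_sup_right hr⟩ hrB (n'.loc.cent r hr), ← d.act])
  let ρ : ↥(P ⊔ P') →* Matrix.SpecialLinearGroup (Fin 2) F := τ.comp topEquiv.symm.toMonoidHom
  have hρ : Function.Surjective ρ := by
    intro m
    obtain ⟨e, rfl⟩ := d.surjσ m
    exact ⟨e, hτ' ⟨e, mem_top _⟩ _ (d.act e)⟩
  have hψ : Function.Injective ψ := by
    rw [injective_iff_map_eq_zero]
    intro w hw
    rw [← br.eq_one_iff]
    exact n.cls.eq_one n.hA n.hB n.hBA.symm ((mC w).1 ((d.fixA w).1 (by rw [hw]; rfl)))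
      ((mD w).1 ((d.fixB w).1 (by rw [hw]; rfl)))
  have hker : (centralizer ((A ⊔ B : Subgroup G) : Set G)).subgroupOf (P ⊔ P') = ρ.ker := by
    ext y
    rw [mem_subgroupOf, ← br.forall_smul_iff, MonoidHom.mem_ker]
    constructor
    · intro h
      exact hτ' ⟨y, mem_top _⟩ 1 fun w => by simp [h w]
    · intro h w
      apply hψ
      have := hτ ⟨y, mem_top _⟩ w
      have h' : τ ⟨y, mem_top _⟩ = 1 := h
      rw [h'] at this
      simpa using this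
  refine ⟨F, inferInstance, inferInstance, ?_, ⟨(QuotientGroup.quotientMulEquivOfEq hker).trans
    (QuotientGroup.quotientKerEquivOfSurjective ρ hρ)⟩⟩
  rw [← Nat.card_eq_fintype_card, d.card, Nat.card_congr (subgroupOfEquivOfLe hC).toEquiv,
    n.cls.card C n.hC A n.hA]

end TINC

end Cfsg.Agent.H56
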