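import Mathlib
import Cfsg.Agent.H56.TISL2
import Cfsg.Agent.H54.Comm
import Cfsg.Agent.H52.FStar
import Cfsg.Agent.H3.Frattini

/-!
A maximal abelian normal subgroup of a 2-local subgroup which is a TI-set.
-/

set_option autoImplicit false

namespace Cfsg.Agent.H56

open Subgroup H85
open scoped commutatorElement

variable {G : Type*} [Group G] [Finite G]

/-- the hypotheses on `V`, with `Q = O₂(N(V))` -/
structure TIHyp (V Q : Subgroup G) : Prop where
  sq : ∀ v ∈ V, v * v = 1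
  pg : IsPGroup 2 Q
  le : Q ≤ normalizer (V : Set G)
  nQ : normalizer (V : Set G) ≤ normalizer (Q : Set G)
  core : ∀ R : Subgroup G, R ≤ normalizer (V : Set G) → IsPGroup 2 R →
    normalizer (V : Set G) ≤ normalizer (R : Set G) → R ≤ Q
  cent : ∀ m ∈ normalizer (V : Set G), (∀ x ∈ Q, m * x = x * m) → m ∈ Q
  max : ∀ A : Subgroup G, V ≤ A → A ≤ normalizer (V : Set G) → IsMulCommutative A →
      (∀ m ∈ normalizer (V : Set G), ∀ a ∈ A, m * a * m⁻¹ ∈ A) → A = V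

omit [Finite G] in
theorem conj_mem_norm {A : Subgroup G} {m a : G} (hm : m ∈ normalizer (A : Set G)) (ha : a ∈ A) :
    m * a * m⁻¹ ∈ A := (mem_normalizer_iff.1 hm a).1 ha

omit [Finite G] in
theorem le_normalizer_of_forall {M A : Subgroup G} (h : ∀ m ∈ M, ∀ a ∈ A, m * a * m⁻¹ ∈ A) :
    M ≤ normalizer (A : Set G) := fun m hm a =>
  ⟨h m hm a, fun ha => by simpa [mul_assoc] using h m⁻¹ (M.inv_mem hm) _ ha⟩

namespace TIHyp
variable {V Q : Subgroup G} (h : TIHyp V Q)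
include h

omit [Finite G] in
theorem le_Q : V ≤ Q := h.core V le_normalizer
  (fun v => ⟨1, Subtype.ext (by simpa [pow_two] using h.sq v v.2)⟩) le_rfl

omit [Finite G] in
theorem le_cent : V ≤ centralizer (V : Set G) := fun _ hu _ hv => comm_of_sq h.sq hv hu

omit [Finite G] in
theorem nP : normalizer (V : Set G) ≤
    normalizer ((Q ⊓ centralizer (V : Set G) : Subgroup G) : Set G) :=
  le_normalizer_inf h.nQ (normalizer_le_normalizer_centralizer V)

omit [Finite G] in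
theorem center_eq {X : Subgroup G} (h1 : V ≤ X) (h2 : X ≤ Q ⊓ centralizer (V : Set G))
    (h3 : normalizer (V : Set G) ≤ normalizer (X : Set G)) {x : G} (hx : x ∈ X)
    (hc : ∀ y ∈ X, x * y = y * x) : x ∈ V := by
  have := h.max (X ⊓ centralizer (X : Set G))
    (fun v hv => ⟨h1 hv, fun y hy => ((h2 hy).2 v hv).symm⟩)
    (inf_le_left.trans (h2.trans (inf_le_left.trans h.le)))
    ⟨⟨fun a b => Subtype.ext (b.2.2 a a.2.1)⟩⟩
    (fun m hm a ha => conj_mem_norm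
      (le_normalizer_inf h3 (h3.trans (normalizer_le_normalizer_centralizer X)) hm) ha)
  rw [← this]
  exact ⟨hx, fun y hy => (hc y hy).symm⟩

theorem loc : TILoc V (Q ⊓ centralizer (V : Set G)) := by
  set P := Q ⊓ centralizer (V : Set G) with hP
  have hle : V ≤ P := le_inf h.le_Q h.le_cent
  have hcent : ∀ x ∈ P, ∀ u ∈ V, x * u = u * x := fun x hx u hu => (hx.2 u hu).symm
  have hPM : P ≤ normalizer (V : Set G) := inf_le_left.trans h.le
  have hcj : ∀ m x y : G, m * ⁅x, y⁆ * m⁻¹ = ⁅m * x * m⁻¹, m * y * m⁻¹⁆ := fun m x y => by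
    simp only [commutatorElement_def]; group
  -- the subgroup of elements of `C(V)` acting trivially on `P / V`
  let J : Subgroup G :=
    { carrier := {j | j ∈ centralizer (V : Set G) ∧ ∀ x ∈ P, ⁅x, j⁆ ∈ V}
      one_mem' := ⟨one_mem _, fun x _ => by simp⟩
      mul_mem' := by
        rintro a b ⟨ha, ha'⟩ ⟨hb, hb'⟩
        refine ⟨mul_mem ha hb, fun x hx => ?_⟩
        have : ⁅x, a * b⁆ = ⁅x, a⁆ * (a * ⁅x, b⁆ * a⁻¹) := by
          simp only [commutatorElement_def]; group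
        rw [this, ← ha _ (hb' x hx), mul_inv_cancel_right]
        exact V.mul_mem (ha' x hx) (hb' x hx)
      inv_mem' := by
        rintro a ⟨ha, ha'⟩
        refine ⟨inv_mem ha, fun x hx => ?_⟩
        have : ⁅x, a⁻¹⁆ = a⁻¹ * (⁅x, a⁆⁻¹ * a) := by
          simp only [commutatorElement_def]; group
        rw [this, ha _ (V.inv_mem (ha' x hx)), inv_mul_cancel_left]
        exact V.inv_mem (ha' x hx) }
  have hJM : J ≤ normalizer (V : Set G) := fun j hj => centralizer_le_normalizer _ hj.1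
  have hJn : normalizer (V : Set G) ≤ normalizer (J : Set G) := by
    refine le_normalizer_of_forall fun m hm j hj =>
      ⟨conj_mem_norm (normalizer_le_normalizer_centralizer V hm) hj.1, fun x hx => ?_⟩
    have := conj_mem_norm hm (hj.2 _ (conj_mem_norm (h.nP (inv_mem hm)) hx))
    rw [hcj] at this
    simpa [mul_assoc] using this
  have hJmul : ∀ a ∈ J, ∀ b ∈ J, ∀ x ∈ P, ⁅x, a * b⁆ = ⁅x, a⁆ * ⁅x, b⁆ := by
    intro a ha b hb x hx
    have : ⁅x, a * b⁆ = ⁅x, a⁆ * (a * ⁅x, b⁆ * a⁻¹) := by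
      simp only [commutatorElement_def]; group
    rw [this, ← ha.1 _ (hb.2 x hx), mul_inv_cancel_right]
  have hJP : J ≤ P := by
    refine fun j hj => ⟨h.core J hJM ?_ hJn hj, hj.1⟩
    intro ⟨j, hj⟩
    have hk : ∀ x ∈ P, x * (j * j) = j * j * x := fun x hx => by
      rw [← commutatorElement_eq_one_iff_mul_comm, hJmul j hj j hj x hx, h.sq _ (hj.2 x hx)]
    have hkJ := J.mul_mem hj hj
    generalize hkdef : j * j = k at hk hkJ
    have h4 : k * k ∈ Q := by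
      refine h.cent _ (hJM (J.mul_mem hkJ hkJ)) fun t ht => ?_
      have h1 : ⁅t, k⁆ ∈ Q := by
        have := Q.mul_mem ht (conj_mem_norm (h.nQ (hJM hkJ)) (Q.inv_mem ht))
        simpa only [commutatorElement_def, mul_assoc] using this
      have h2 : ⁅t, k⁆ ∈ centralizer (P : Set G) := by
        have hkc : k ∈ centralizer (P : Set G) := fun x hx => hk x hx
        exact mul_mem (conj_mem_norm (normalizer_le_normalizer_centralizer P (h.nP (h.le ht))) hkc)
          (inv_mem hkc)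
      have h3 : ⁅t, k⁆ ∈ V := h.center_eq hle le_rfl h.nP ⟨h1, fun v hv => h2 v (hle hv)⟩
        fun y hy => (h2 y hy).symm
      symm
      rw [← commutatorElement_eq_one_iff_mul_comm]
      have : ⁅t, k * k⁆ = ⁅t, k⁆ * (k * ⁅t, k⁆ * k⁻¹) := by
        simp only [commutatorElement_def]; group
      rw [this, ← hkJ.1 _ h3, mul_inv_cancel_right, h.sq _ h3]
    obtain ⟨e, he⟩ := h.pg ⟨_, h4⟩
    refine ⟨2 + e, Subtype.ext ?_⟩
    have he' : (k * k) ^ 2 ^ e = 1 := congrArg Subtype.val he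
    show j ^ 2 ^ (2 + e) = 1
    rw [pow_add, pow_mul, ← he', ← hkdef]
    congr 1
    simp [pow_succ, mul_assoc]
  -- `C_P(J) ≤ V`
  have hVJ : V ≤ J := fun v hv => ⟨h.le_cent hv, fun x hx => by
    rw [commutatorElement_eq_one_iff_mul_comm.2 (hcent x hx v hv)]; exact one_mem _⟩
  have hE : P ⊓ centralizer (J : Set G) ≤ V := by
    by_contra hc
    have : Fact (Nat.Prime 2) := ⟨Nat.prime_two⟩
    have hPp : IsPGroup 2 P := h.pg.to_le inf_le_left
    obtain ⟨e, he, heV, hcomm⟩ := H54.exists_not_mem_commutator_mem_of_isPGroup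
      (hPp.to_le (inf_le_left : P ⊓ centralizer (J : Set G) ≤ P)) hPp
      (hPM.trans (le_normalizer_inf h.nP (hJn.trans (normalizer_le_normalizer_centralizer J)))) hc
    refine heV (h.center_eq hVJ hJP hJn ⟨he.1.2, fun x hx => ?_⟩ fun y hy => (he.2 y hy).symm)
    rw [← commutatorElement_inv]
    exact V.inv_mem (hcomm x (mem_sup_left hx))
  have hPmul : ∀ a ∈ P, ∀ b ∈ P, ∀ y ∈ J, ⁅a * b, y⁆ = ⁅b, y⁆ * ⁅a, y⁆ := by
    intro a ha b hb y hy
    have : ⁅a * b, y⁆ = (a * ⁅b, y⁆) * a⁻¹ * ⁅a, y⁆ := by simp only [commutatorElement_def]; group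
    rw [this, hcent a ha _ (hy.2 b hb), mul_inv_cancel_right]
  have hsq : ∀ x ∈ P, x * x ∈ V := fun x hx => hE ⟨P.mul_mem hx hx, fun y hy => by
    symm
    rw [← commutatorElement_eq_one_iff_mul_comm, hPmul x hx x hx y hy, h.sq _ (hy.2 x hx)]⟩
  refine ⟨hle, hcent, fun x hx y hy => ?_, hsq, fun x hx hc => h.center_eq hle le_rfl h.nP hx hc,
    fun j h1 h2 => hJP ⟨fun v hv => (h1 v hv).symm, h2⟩,
    fun m hm x hx => conj_mem_norm (h.nP (cj_eq_iff_mem_normalizer.1 hm)) hx⟩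
  have : ⁅x, y⁆ = (x * x) * ((x⁻¹ * y) * (x⁻¹ * y)) * (y⁻¹ * y⁻¹) := by
    simp only [commutatorElement_def]; group
  rw [this]
  exact V.mul_mem (V.mul_mem (hsq x hx) (hsq _ (P.mul_mem (P.inv_mem hx) hy)))
    (hsq _ (P.inv_mem hy))

omit [Finite G] in
theorem nonab {B : Subgroup G} (hB : B ≤ Q ⊓ centralizer (V : Set G)) (hBV : ¬B ≤ V) :
    ∃ m ∈ normalizer (V : Set G), ¬∀ b ∈ B, ∀ c ∈ H85.cj m B, b * c = c * b := by
  by_contra hc
  push Not at hc
  let Z : Subgroup G := (Q ⊓ centralizer (V : Set G)) ⊓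
    centralizer {c | ∃ m ∈ normalizer (V : Set G), c ∈ H85.cj m B}
  refine hBV fun b hb => h.center_eq (X := Z) ?_ inf_le_left ?_ ⟨hB hb, ?_⟩ ?_
  · rintro v hv
    refine ⟨⟨h.le_Q hv, h.le_cent hv⟩, ?_⟩
    rintro c ⟨m, hm, hcm⟩
    exact ((cj_le_of_mem_normalizer hB (h.nP hm) hcm).2 v hv).symm
  · refine le_normalizer_of_forall fun m hm a ha => ⟨conj_mem_norm (h.nP hm) ha.1, ?_⟩
    rintro c ⟨m', hm', hcm⟩
    have := ha.2 (m⁻¹ * c * m⁻¹⁻¹) ⟨m⁻¹ * m', mul_mem (inv_mem hm) hm', by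
      rw [cj_mul]; exact conj_mem_cj hcm⟩
    calc c * (m * a * m⁻¹) = m * (m⁻¹ * c * m⁻¹⁻¹ * a) * m⁻¹ := by group
      _ = m * a * m⁻¹ * c := by rw [this]; group
  · rintro c ⟨m, hm, hcm⟩
    exact (hc m hm b hb c hcm).symm
  · intro y hy
    exact hy.2 b ⟨1, one_mem _, by rw [cj_one]; exact hb⟩

theorem main (hti : ∀ x : G, H85.cj x V = V ∨ H85.cj x V ⊓ V = ⊥) {g : G} (hg : H85.cj g V ≠ V)
    (hgQ : H85.cj g V ≤ Q) :
    ∃ C D, TINC {U | ∃ x, U = H85.cj x V} V Q (H85.cj g V) C ∧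
      TINC {U | ∃ x, U = H85.cj x V} (H85.cj g V) (H85.cj g Q) V D ∧
      Q ⊓ centralizer (V : Set G) = Q := by
  have hV0 : V ≠ ⊥ := by
    rintro rfl
    exact hg (cj_bot g)
  have cls : TICls {U | ∃ x, U = H85.cj x V} := by
    refine ⟨?_, ?_, ?_, ?_, ?_⟩
    · rintro _ ⟨x, rfl⟩ y
      exact ⟨y * x, (cj_mul _ _ _).symm⟩
    · rintro _ ⟨x, rfl⟩ _ ⟨y, rfl⟩ u h1 hx hy
      rcases hti (y⁻¹ * x) with e | e
      · rw [cj_mul] at e
        conv_rhs => rw [← e, cj_cj_inv]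
      · have : y⁻¹ * u * y ∈ H85.cj (y⁻¹ * x) V ⊓ V :=
          ⟨by rw [cj_mul]; simpa using conj_mem_cj (g := y⁻¹) hx, mem_cj.1 hy⟩
        rw [e, mem_bot] at this
        exact absurd (by simpa [mul_assoc] using congrArg (fun t => y * t * y⁻¹) this) h1
    · rintro _ ⟨x, rfl⟩ _ ⟨u, hu, rfl⟩
      rw [← map_mul, h.sq u hu, map_one]
    · rintro _ ⟨x, rfl⟩ _ ⟨y, rfl⟩
      rw [card_cj, card_cj]
    · rintro _ ⟨x, rfl⟩ e
      exact hV0 ((cj_eq_bot_iff x).1 e)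
  have hV : V ∈ {U | ∃ x, U = H85.cj x V} := ⟨1, (cj_one V).symm⟩
  have hB : H85.cj g V ∈ {U | ∃ x, U = H85.cj x V} := ⟨g, rfl⟩
  have key : ∀ B ∈ {U | ∃ x, U = H85.cj x V}, B ≤ Q → B ≠ V →
      ∃ C, TINC {U | ∃ x, U = H85.cj x V} V (Q ⊓ centralizer (V : Set G)) B C := by
    intro B hB hBQ hBV
    have hBP : B ≤ Q ⊓ centralizer (V : Set G) := fun b hb => ⟨hBQ hb, fun v hv =>
      cls.comm_of_norm hV hB (fun b hb => cj_eq_of_mem_normalizer (h.le (hBQ hb))) v hv b hb⟩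
    obtain ⟨m, hm, hnc⟩ := h.nonab hBP (fun hle => by
      obtain ⟨b, hb, hb1⟩ := cls.exists_ne_one hB
      exact hBV (cls.ti _ hB _ hV b hb1 hb (hle hb)))
    refine ⟨H85.cj m B, cls, h.loc, hV, hB, cls.conj _ hB m, hBP,
      cj_le_of_mem_normalizer hBP (h.nP hm), hBV, fun e => hBV ?_, hnc⟩
    rw [← cj_eq_of_mem_normalizer hm] at e
    exact cj_inj m e
  obtain ⟨C, n⟩ := key _ hB hgQ hg
  have h1 := n.le_cj rfl
  obtain ⟨D, n₀⟩ := key (H85.cj g⁻¹ V) ⟨_, rfl⟩ (((le_cj_iff_cj_inv_le g).1 h1).trans inf_le_left)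
    (fun e => hg (by conv_lhs => rw [← e, cj_cj_inv]))
  have n' := n₀.cj g
  rw [cj_cj_inv] at n'
  have hPQ : Q ⊓ centralizer (V : Set G) = Q := by
    refine inf_eq_left.2 fun t ht v hv => ?_
    have : Fact (Nat.Prime 2) := ⟨Nat.prime_two⟩
    obtain ⟨z, hz, hz0, hzc⟩ := H54.exists_not_mem_commutator_mem_of_isPGroup
      (h.pg.to_le h.le_Q) h.pg h.le (N := ⊥) (fun e => hV0 (le_bot_iff.1 e))
    by_cases hv1 : v = 1
    · rw [hv1, one_mul, mul_one]
    obtain ⟨m, hm, e⟩ := n.exists_conj_AA n' hz (fun e => hz0 (mem_bot.2 e)) hv hv1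
    have h2 := commutatorElement_eq_one_iff_mul_comm.1 (mem_bot.1 (hzc _ (mem_sup_left
      (conj_mem_norm (h.nQ (inv_mem (cj_eq_iff_mem_normalizer.1 hm))) ht))))
    rw [← e]
    calc m * z * m⁻¹ * t = m * (z * (m⁻¹ * t * m⁻¹⁻¹)) * m⁻¹ := by group
      _ = t * (m * z * m⁻¹) := by rw [h2]; group
  rw [hPQ] at n n'
  exact ⟨C, _, n, n', hPQ⟩

end TIHyp

theorem tiHyp_of {V : Subgroup G} (hV : IsElementaryAbelian 2 V)
    (h1 : (generalizedFittingSubgroup ↥(normalizer (V : Set G))).map (normalizer (V : Set G)).subtype =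
      (pCore 2 ↥(normalizer (V : Set G))).map (normalizer (V : Set G)).subtype)
    (h2 : ∀ A : Subgroup G, V ≤ A → A ≤ normalizer (V : Set G) → IsMulCommutative A →
      (∀ m ∈ normalizer (V : Set G), ∀ a ∈ A, m * a * m⁻¹ ∈ A) → A = V) :
    TIHyp V (pCoreOf 2 (normalizer (V : Set G))) := by
  have : Fact (Nat.Prime 2) := ⟨Nat.prime_two⟩
  refine ⟨fun v hv => by simpa [pow_two] using hV.2 v hv, pCoreOf_isPGroup _ _, pCoreOf_le _ _,
    le_normalizer_pCoreOf _ _, fun R a b c => le_pCoreOf a b c, fun m hm hc => ?_, h2⟩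
  have h3 := H52.fstar_eq_pCore_iff_centralizer_le.1 (map_injective (subtype_injective _) h1)
  exact ⟨⟨m, hm⟩, h3 fun x hx => Subtype.ext (hc x ⟨x, hx, rfl⟩).symm, rfl⟩

namespace TINC
variable {𝒱 : Set (Subgroup G)} {A P B C : Subgroup G} (n : TINC 𝒱 A P B C)
include n

theorem commutator_eq : ⁅P, P⁆ = A := by
  refine le_antisymm (commutator_le.2 n.loc.comm) fun a ha => ?_
  obtain ⟨b, hb, hb1⟩ := n.cls.exists_ne_one n.hB
  obtain ⟨c, hc, rfl⟩ := n.surjC hb hb1 ha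
  exact commutator_mem_commutator (n.hCP hc) (n.hBP hb)

theorem frattini_eq (hP : IsPGroup 2 P) : (frattini P).map P.subtype = A := by
  have : Fact (Nat.Prime 2) := ⟨Nat.prime_two⟩
  refine le_antisymm ((H3.map_frattini_le_iff hP).2 ⟨n.commutator_eq.le, fun x hx => ?_⟩)
    (n.commutator_eq.ge.trans (H3.commutator_le_map_frattini hP))
  rw [pow_two]; exact n.loc.sq x hx

omit [Finite G] in
theorem center_eq : (center P).map P.subtype = A := by
  apply le_antisymm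
  · rintro _ ⟨x, hx, rfl⟩
    exact n.loc.ctr x x.2 fun y hy => (congrArg Subtype.val (mem_center_iff.1 hx ⟨y, hy⟩)).symm
  · intro a ha
    exact ⟨⟨a, n.loc.le ha⟩, mem_center_iff.2 fun y => Subtype.ext (n.loc.cent y y.2 a ha), rfl⟩

end TINC

end Cfsg.Agent.H56
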