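import Mathlib
import Cfsg.Agent.H74.UVDefs

/-! Project UV, piece NRM: a normaliser element with a large determinant. -/

set_option autoImplicit false

namespace Cfsg.Agent.H56.UvNrm

open Cfsg Module Cfsg.Agent.H31 Cfsg.Agent.H74.UV
open Cfsg.Agent.H53.Uw (St fx mem_fx)

universe u

theorem cop {q l : ℕ} (hq : 0 < q) (hl : l.Prime) (h5 : l ≠ 5)
    (h : l ∣ q ^ 4 + q ^ 3 + q ^ 2 + q + 1) : l.Coprime (q ^ 2 - 1) := by
  rw [hl.coprime_iff_not_dvd]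
  intro h1
  have h2 := (ZMod.natCast_eq_zero_iff _ _).2 h
  have h3 := (ZMod.natCast_eq_zero_iff _ _).2 h1
  rw [Nat.cast_sub (Nat.one_le_pow _ _ hq)] at h3
  push_cast at h2 h3
  have h4 : ((5 : ℕ) : ZMod l) = 0 := by
    push_cast
    linear_combination -(2 * q - 3) * h2 + ((2 * q - 3) * (q ^ 2 + q + 2) + 4) * h3
  exact h5 ((Nat.prime_dvd_prime_iff_eq hl Nat.prime_five).1 ((ZMod.natCast_eq_zero_iff _ _).1 h4))

theorem nrm (gl1 : Gl1Stmt.{u}) (gl2 : Gl2Stmt.{u}) (frat : FratStmt.{u}) : NrmStmt.{u} := by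
  intro E V _ _ _ _ _ σ B q l G st rk hl h5 hd hG hlG tr ⟨v, hv, g, hg, gv, dg⟩
  classical
  have : Fact l.Prime := ⟨hl⟩
  have : Finite (V ≃ₗ[E] V) := Finite.of_injective (fun g : V ≃ₗ[E] V => (g : V → V))
    DFunLike.coe_injective
  obtain ⟨⟨x, hx⟩, ox⟩ := exists_prime_orderOf_dvd_card' l hlG
  rw [Subgroup.orderOf_mk] at ox
  obtain ⟨U₁, U₂, f1, -, -, -, -, top, orth, -⟩ := gl1 E V σ B q l st rk hl h5 hd x (hG hx) ox
  obtain ⟨⟨w0, hw0⟩, w1, sp⟩ := finrank_eq_one_iff'.1 f1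
  have sp' : ∀ w ∈ fx x, ∃ c : E, c • w0 = w := fun w hw =>
    (sp ⟨w, hw⟩).imp fun c e => congrArg Subtype.val e
  have nw : B w0 w0 ≠ 0 := fun h0 => w1 (Subtype.ext (st.herm.nondeg w0 fun y => by
    have hy : y ∈ fx x ⊔ (U₁ ⊔ U₂) := by rw [← sup_assoc, top]; trivial
    obtain ⟨a, ha, b, hb, rfl⟩ := Submodule.mem_sup.1 hy
    obtain ⟨c, rfl⟩ := sp' a ha
    rw [map_add, map_smul, h0, orth w0 hw0 b hb, smul_zero, add_zero]))
  obtain ⟨c, hc⟩ := st.herm.exists_smul_norm_eq hv (st.herm.symm w0 w0)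
  obtain ⟨k, hk, kv⟩ := tr (c • v) w0 hc (hc ▸ nw)
  let H : Subgroup (V ≃ₗ[E] V) := G ⊓ MulAction.stabilizer (V ≃ₗ[E] V) w0
  have xH : x ∈ H := ⟨hx, mem_fx.1 hw0⟩
  have gH : k * g * k⁻¹ ∈ H := ⟨G.mul_mem (G.mul_mem hk hg) (G.inv_mem hk), by
    show (k * g * k⁻¹) w0 = w0
    conv_lhs => rw [← kv]
    rw [← LinearEquiv.mul_apply, inv_mul_cancel_right, LinearEquiv.mul_apply, map_smul, gv, kv]⟩
  have dx : LinearEquiv.det x = 1 := by
    have h1 : LinearEquiv.det x ^ l = 1 := by rw [← map_pow, ← ox, pow_orderOf_eq_one, map_one]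
    have h2 : LinearEquiv.det x ^ (q ^ 2 - 1) = 1 := by
      rw [← st.card, ← Fintype.card_units, pow_card_eq_one]
    have hq : 0 < q := Nat.pos_of_ne_zero fun e => by
      have := st.card
      rw [e] at this
      exact Fintype.card_ne_zero this
    have := pow_gcd_eq_one.2 ⟨h1, h2⟩
    rwa [cop hq hl h5 hd, pow_one] at this
  obtain ⟨n, hn, e⟩ := frat H l (LinearEquiv.det.comp H.subtype).ker inferInstance hl
    (gl2 E V σ B q l st rk hl h5 hd H (inf_le_left.trans hG)) ⟨x, xH⟩ dx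
    (by rw [Subgroup.orderOf_mk, ox]) ⟨_, gH⟩
  refine ⟨x, hx, ox, n.1 * (k * g * k⁻¹), mul_mem n.2.1 gH.1, ?_, fun w hw => ?_, ?_⟩
  · obtain ⟨i, hi⟩ := e
    exact ⟨i, congrArg Subtype.val hi⟩
  · obtain ⟨c, rfl⟩ := sp' w hw
    rw [map_smul, show (n.1 * (k * g * k⁻¹)) w0 = w0 from (mul_mem n.2 gH).2]
  · rwa [map_mul, show LinearEquiv.det n.1 = 1 from hn, one_mul, map_mul, map_mul, map_inv,
      mul_inv_cancel_comm]

end Cfsg.Agent.H56.UvNrm
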